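import Cfsg.Agent.Tr.Ga
import Cfsg.Agent.H3.Integral

/-! The exceptional case `p ^ n = 3 ^ 4`. -/

set_option autoImplicit false

namespace Cfsg.Agent.Tr

open Subgroup Cfsg.Agent.H1 Cfsg.Agent.L Cfsg.Agent.H3 Cfsg.Agent.FT
open scoped Pointwise ComplexConjugate commutatorElement

variable {Γ : Type*} [Group Γ] [Finite Γ] {V G H K R A B Q L : Subgroup Γ} {φ χ θ β : Γ → ℂ}
  {x y : Γ}

namespace E4

theorem card_cs_le_one (hφ : Chr H φ) (hK : K ≤ H) (hθ : Irr K θ) (h : deg φ ≤ mu K φ θ) :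
    (cs K φ).card ≤ 1 := by
  classical
  have h1 : ∀ a ∈ cs K φ, a = θ := fun a ha => by
    by_contra h1
    have h2 := sum_mu_le hφ hK (S := {a, θ})
      (by simp [Finset.insert_subset_iff, hθ, (mem_cs.1 ha).1])
    rw [Finset.sum_pair h1] at h2
    have := (mem_cs.1 ha).2
    omega
  exact Finset.card_le_one.2 fun a ha b hb => (h1 a ha).trans (h1 b hb).symm

theorem nu_le (hφ : Chr H φ) (hK : K ≤ H) {d : ℕ} (h : ∀ θ, Irr K θ → mu K φ θ ≤ d) :
    mu K φ φ ≤ d * deg φ := by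
  rw [nu_sum hφ hK]
  refine le_trans ?_ (Nat.mul_le_mul_left d (sum_mu_le hφ hK le_rfl))
  rw [Finset.mul_sum]
  exact Finset.sum_le_sum fun θ hθ => by
    rw [sq]; exact Nat.mul_le_mul_right _ (h θ (mem_irrs.1 hθ))

theorem mu_le_deg (hφ : Chr H φ) (hK : K ≤ H) (hθ : Irr K θ) : mu K φ θ ≤ deg φ := by
  simpa using sum_mu_le hφ hK (S := {θ}) (by simpa using hθ)

theorem deg_le_nu (hφ : Chr H φ) (hK : K ≤ H) (hc : IsMulCommutative K) : deg φ ≤ mu K φ φ := by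
  rw [nu_sum hφ hK, ← sum_mu_comm hφ hK hc]
  exact Finset.sum_le_sum fun θ _ => Nat.le_self_pow two_ne_zero _

theorem res_eq (hφ : Chr H φ) (hL : L ≤ H) (hχ : χ ∈ cs L φ) (h : deg φ ≤ deg χ) :
    res L φ = χ := by
  classical
  obtain ⟨h1, h2⟩ := mem_cs.1 hχ
  have h3 := deg_sum hφ hL
  rw [← Finset.add_sum_erase _ _ (mem_irrs.2 h1)] at h3
  have h4 := deg_pos h1
  have h5 : mu L φ χ = 1 := by
    by_contra h5
    have := Nat.mul_le_mul_right (deg χ) (show 2 ≤ mu L φ χ by omega)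
    omega
  rw [h5] at h3
  have h6 := Finset.sum_eq_zero_iff.1 (show ∑ ψ ∈ (irrs L).erase χ, mu L φ ψ * deg ψ = 0 by omega)
  rw [res_eq_sum hφ hL, ← Finset.add_sum_erase _ _ (mem_irrs.2 h1), h5,
    Finset.sum_eq_zero fun ψ hψ => ?_]
  · simp
  · rw [(mul_eq_zero.1 (h6 ψ hψ)).resolve_right
      (deg_pos (mem_irrs.1 (Finset.mem_of_mem_erase hψ))).ne', Nat.cast_zero, zero_smul]

theorem mu_res (hK : K ≤ L) (φ : Γ → ℂ) : mu K (res L φ) (res L φ) = mu K φ φ :=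
  mu_congr (by rw [dot_res_left_of_le hK, dot_res_right_of_le hK])

omit [Finite Γ] in
theorem deg_res (L : Subgroup Γ) (φ : Γ → ℂ) : deg (res L φ) = deg φ := by simp [deg]

theorem irr_res (hφ : Chr H φ) (hK : K ≤ H) (h : mu K φ φ = 1) : Irr K (res K φ) :=
  (hφ.res hK).irr_of_dot (by
    rw [dot_res_left, dot_res_right, dot_eq_mu hφ hφ hK hK, h, Nat.cast_one])

theorem le_zent_of_card (hβ : Chr G β) (hf : cfker G β = ⊥) (hA : A ≤ G) (hc : IsMulCommutative A)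
    (h : (cs A β).card ≤ 1) : A ≤ zent G :=
  le_zent hA (le_cent_symm (le_cent_of_card_cs hβ hf le_rfl hA hc fun _ hχ =>
    (Finset.card_le_card (cs_trans hβ le_rfl hA hχ)).trans h))

theorem mu_cent (hβ : Chr G β) (hK : K ≤ G) (h : mu K β β = 1) (hA : A ≤ K) (hc : K ≤ 𝐂(A))
    (hθ : θ ∈ cs A β) : mu A β θ = deg β := by
  have e : mu A (res K β) θ = mu A β θ := mu_congr (dot_res_left_of_le hA _ _)
  rw [← e, mu_eq_deg_of_cent (irr_res hβ hK h) hA hc
    (mem_cs.2 ⟨(mem_cs.1 hθ).1, e ▸ (mem_cs.1 hθ).2⟩), deg_res]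

theorem nu_of_le (s : St 3 4 V G β) (hK : K ≤ G) (hR : R ≤ K) (h : mu R β β = 1) : mu K β β = 1 :=
  le_antisymm (h ▸ nu_mono s.chr hK hR) (nu_pos s.chr hK (by simp [s.dg]))

/-- the centraliser of an irreducible subgroup is central -/
theorem mem_zent_of_cent (s : St 3 4 V G β) (hR : R ≤ G) (h : mu R β β = 1) (hx : x ∈ G)
    (hc : x ∈ 𝐂(R)) : x ∈ zent G := by
  have h1 := zpowers_le.2 hx
  obtain ⟨θ, hθ⟩ := cs_nonempty s.chr h1 (by simp [s.dg])
  exact le_zent_of_card s.chr s.ker h1 (comm_of_cyclic (cyclic_zpowers x)) (card_cs_le_one s.chr h1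
    (mem_cs.1 hθ).1 (mu_cent s.chr (K := G ⊓ 𝐂[x]) inf_le_left (nu_of_le s inf_le_left
      (le_inf hR (le_cent1_iff.2 hc)) h) (zpowers_le.2 ⟨hx, self_mem_cent1 x⟩)
      (cent_zpowers x ▸ inf_le_right) hθ).ge) (mem_zpowers x)

theorem card_zent (s : St 3 4 V G β) (h : mu G β β = 1) : #|zent G| ∣ 2 := by
  haveI := zent_comm G
  have hZ := zent_le G
  have hf : ∀ γ ∈ cs (zent G) β, cfker (zent G) γ = ⊥ := fun γ h =>
    s.faith_of_reg hZ (s.reg (zent_normal G) this) h (mem_cs.1 h).1.linChr_of_comm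
  obtain ⟨γ, hγ⟩ := cs_nonempty s.chr hZ (by simp [s.dg])
  have hl := (mem_cs.1 hγ).1.linChr_of_comm
  refine s.modEq hZ le_rfl (cyclic_of_lin hl (hf γ hγ)) hf hγ hl (k := 1) ?_
  by_contra h1
  have h2 := s.orbit_le hZ hl (d := 2) fun k h2 h3 => by rwa [show k = 1 by omega]
  rw [mu_cent s.chr le_rfl h hZ (le_cent_zent G) hγ, s.dg] at h2
  omega

theorem ppd : Ppd 3 4 5 :=
  ⟨by norm_num, by norm_num, fun k h1 h2 => by interval_cases k <;> norm_num⟩

/-- Lemma X -/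
theorem lemX (s : St 3 4 V G β) (hy : y ∈ G) (ho : orderOf y = 5) (hR : R ≤ G) (h2 : IsPGroup 2 R)
    (hn : zpowers y ≤ 𝐍(R)) (hc : ¬ zpowers y ≤ 𝐂(R)) :
    mu R β β = 1 ∧ R ⊓ 𝐂[y] ≤ zent G := by
  have hA := zpowers_le.2 hy
  have hL := sup_le hR hA
  obtain ⟨χ, hχ, h3, h4⟩ := exists_bad_sd s.chr s.ker (r := 5) (by norm_num)
    ((Nat.card_zpowers y).trans ho) hA hR hn ((Nat.Prime.coprime_iff_not_dvd (by norm_num)).1
      (pgroup_coprime Nat.prime_two h2 (by norm_num)).symm) hc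
  have h5 := card_cs_le_deg (mem_cs.1 hχ).1.chr le_sup_right
  rw [← res_eq s.chr hL hχ (by rw [s.dg]; omega), mu_res inf_le_left, mu_res le_sup_left,
    mu_res (inf_le_left.trans le_sup_left), cent_zpowers] at h4
  have hC := s.comm_ppd ppd hy ho
  have h6 := deg_le_nu s.chr (inf_le_left.trans hL) (comm_of_le hC (inf_le_inf_right 𝐂[y] hL))
  have h7 := nu_pos s.chr hR (by simp [s.dg])
  have hB : R ⊓ 𝐂[y] ≤ G := inf_le_left.trans hR
  have h8 := nu_le s.chr hB fun θ hθ => mu_le_deg s.chr hB hθ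
  rw [s.dg] at h6 h8
  refine ⟨by omega, ?_⟩
  by_contra h9
  have h10 := nu_le s.chr hB (d := 3) fun θ hθ => by
    by_contra h10
    exact h9 (le_zent_of_card s.chr s.ker hB (comm_of_le hC (inf_le_inf_right 𝐂[y] hR))
      (card_cs_le_one s.chr hB hθ (by rw [s.dg]; omega)))
  rw [s.dg] at h10
  omega

omit [Finite Γ] in
theorem le_zent_of_zent2 (hR : Group.IsNilpotent R) (h : zent2 R ≤ zent R) : R ≤ zent R := by
  obtain ⟨n, hn⟩ := nil_iff_lcs.1 hR
  have h1 : lcs R n ≤ zent R := hn ▸ bot_le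
  clear hn
  induction n with
  | zero => exact h1
  | succ n ih => exact ih ((le_zent2_iff.2 ⟨lcs_le R n, h1⟩).trans h)

/-- Lemma Y -/
theorem lemY (s : St 3 4 V G β) (hy : y ∈ G) (ho : orderOf y = 5) (hR : R ≤ G) (h2 : IsPGroup 2 R)
    (hn : zpowers y ≤ 𝐍(R)) (hc : ¬ zpowers y ≤ 𝐂(R)) : #|R| ≤ 32 := by
  obtain ⟨h3, h4⟩ := lemX s hy ho hR h2 hn hc
  have hZ : zent G ≤ 𝐂(R) := (zent_le_cent G).trans (cent_anti hR)
  have h5 := (lemX s hy ho ((zent2_le R).trans hR) (h2.to_le (zent2_le R))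
    (hn.trans (norm_le_norm_zent2 R)) fun h5 => by
      have h6 : zent2 R ≤ zent G := (le_inf (zent2_le R)
        (cent_zpowers y ▸ le_cent_symm h5)).trans h4
      have h7 := le_zent_of_zent2 (pgroup_nil Nat.prime_two h2) (le_zent (zent2_le R) (h6.trans hZ))
      exact hc (le_cent_symm fun x hx => cent_anti (zpowers_le.2 hy)
        (mem_zent_of_cent s hR h3 (hR hx) (h7 hx).2).2)).1
  have hI := irr_res s.chr hR h3
  have h6 := card_mul_dot_of_supp (φ := β) (ψ := β) (inf_le_left : R ⊓ zent G ≤ R) fun x hx h6 => by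
    obtain ⟨u, hu, h7⟩ : ∃ u ∈ zent2 R, u * x ≠ x * u := by
      by_contra! h
      exact h6 ⟨hx, mem_zent_of_cent s ((zent2_le R).trans hR) h5 (hR hx) (mem_cent.2 h)⟩
    have h8 : ⁅x⁻¹, u⁆ ∈ zent R := (commutator_comm _ _).le.trans (comm_zent2_le R)
      (commutator_mem_commutator (R.inv_mem hx) hu)
    have e1 := hI.apply_mul_of_comm h8.1 (fun x hx => by
      rw [mem_cent.1 h8.2 x hx, mul_inv_cancel_right, mul_inv_cancel]; exact one_mem _) x
    rw [show x * ⁅x⁻¹, u⁆ = u * x * u⁻¹ by simp [commutatorElement_def, mul_assoc],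
      hI.cf.conj_eq u (zent2_le R hu)] at e1
    by_contra h0
    have e2 := hI.chr.mem_cfker.2 ⟨h8.1, (mul_left_cancel₀ (by
      rw [res_apply_of_mem _ hx]; exact left_ne_zero_of_mul h0) e1).symm⟩
    rw [s.chr.cfker_res hR, s.ker, inf_bot_eq, mem_bot, commutatorElement_eq_one_iff_commute] at e2
    exact h7 (by simpa using e2.inv_left.eq.symm)
  have hB : R ⊓ zent G ≤ G := inf_le_left.trans hR
  rw [dot_eq_mu s.chr s.chr hR hR, dot_eq_mu s.chr s.chr hB hB, h3] at h6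
  have h7 : #|R| * 1 = #|R ⊓ zent G| * mu (R ⊓ zent G) β β := by exact_mod_cast h6
  have h8 := nu_le s.chr hB fun θ hθ => mu_le_deg s.chr hB hθ
  have h9 := (card_le_of_le' (inf_le_right : R ⊓ zent G ≤ _)).trans
    (Nat.le_of_dvd two_pos (card_zent s (nu_of_le s le_rfl hR h3)))
  rw [s.dg] at h8
  have := Nat.mul_le_mul h9 h8
  omega

theorem not13 (s : St 3 4 V G β) : #|G| ∣ 2 ^ 9 * 5 := by
  have h1 : #|G| ∣ 13 * (2 ^ 9 * 5) := (((Nat.Prime.coprime_iff_not_dvd Nat.prime_three).2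
    s.cop).symm.pow_right 6).dvd_of_dvd_mul_left (by simpa [Finset.prod_range_succ] using s.G_dvd)
  have hp : Nat.Prime 13 := by norm_num
  refine ((Nat.Prime.coprime_iff_not_dvd hp).2 fun h => ?_).symm.dvd_of_dvd_mul_left h1
  obtain ⟨P, hP⟩ := exists_isSylowIn 13 G
  obtain ⟨a, ha⟩ := pgroup_card hp hP.isPGroup
  have h2 : #|P| = 13 := by
    have h3 := pgroup_dvd_card hp hP.isPGroup (sylow_ne_bot hp hP h)
    have h4 := (card_dvd_of_le hP.le).trans h1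
    rw [ha] at h3 h4 ⊢
    rcases a with _ | _ | a
    · norm_num at h3
    · rfl
    · exact absurd ((pow_dvd_pow 13 (by omega : 2 ≤ a + 1 + 1)).trans h4) (by norm_num)
  by_cases hn : G ≤ 𝐍(P)
  · exact absurd (h2 ▸ s.card_dvd ⟨hP.le, hn⟩ (comm_of_cyclic (cyclic_of_prime (h2 ▸ hp))))
      (by norm_num)
  obtain ⟨e, ν, t, m, a1, a2, a3, a4, a5, a6, a7, a8, a9, a10⟩ :=
    exists_bad_prime s.chr s.ker hp hP h2 hn
  have h3 : e ≠ 3 := fun e => s.cop (e ▸ a3)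
  rw [s.dg] at a7
  have h4 : t ≤ 4 := a6.trans a7
  interval_cases m <;> interval_cases t <;> interval_cases e <;> omega

omit [Finite Γ] in
theorem two_of (h : #|K| ∣ 2 ^ 9 * 5) (h5 : ¬ 5 ∣ #|K|) : IsPGroup 2 K := by
  obtain ⟨a, -, ha⟩ := (Nat.dvd_prime_pow Nat.prime_two).1
    (((Nat.Prime.coprime_iff_not_dvd Nat.prime_five).2 h5).symm.dvd_of_dvd_mul_right h)
  exact pgroup_of_card ha

theorem syl_modEq {p : ℕ} (hp : p.Prime) (h : IsSylowIn p A G) :
    (G ⊓ 𝐍(A)).relIndex G ≡ 1 [MOD p] := by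
  haveI := Fact.mk hp
  have := card_sylow_modEq_one p G
  rw [h.toSylow.card_eq_index_normalizer] at this
  rwa [inf_relIndex_left, relIndex, subgroupOf_normalizer_eq h.le]

theorem syl5 (s : St 3 4 V G β) (hy : y ∈ G) (ho : orderOf y = 5) : IsSylowIn 5 (zpowers y) G := by
  haveI := Fact.mk Nat.prime_five
  have h1 := (Nat.card_zpowers y).trans ho
  refine isSylowIn_of_not_dvd_relIndex (zpowers_le.2 hy) (pgroup_of_card_prime h1) fun h => ?_
  have h2 := not13 s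
  rw [← card_mul_relIndex_of_le (zpowers_le.2 hy), h1] at h2
  exact absurd ((Nat.mul_dvd_mul_left 5 h).trans h2) (by norm_num)

/-- the self-centralising normal `2`-subgroup -/
structure Two (G Q : Subgroup Γ) : Prop where
  nm : Q ⊴ G
  two : IsPGroup 2 Q
  cent : G ⊓ 𝐂(Q) ≤ Q

theorem exists_two (s : St 3 4 V G β) (hy : y ∈ G) (ho : orderOf y = 5)
    (hn : ¬ G ≤ 𝐍(zpowers y)) : Two G (core {2} G) := by
  have hd : ∀ r : ℕ, r.Prime → r ∣ #|G| → r = 2 ∨ r = 5 := fun r hr h =>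
    ((Nat.Prime.dvd_mul hr).1 (h.trans (not13 s))).imp (fun h => (Nat.prime_dvd_prime_iff_eq hr
      Nat.prime_two).1 (hr.dvd_of_dvd_pow h)) (Nat.prime_dvd_prime_iff_eq hr Nat.prime_five).1
  have h1 : core {2}ᶜ G = ⊥ := by
    rw [core_congr (ρ := {5}) fun r hr h => by rcases hd r hr h with rfl | rfl <;> simp]
    exact (eq_bot_or_eq_of_prime (by rw [Nat.card_zpowers, ho]; norm_num) (sylow_core_le
      Nat.prime_five (syl5 s hy ho))).resolve_right fun e => hn (e ▸ (core_normal _ G).norm)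
  exact ⟨core_normal _ G, core_pgroup Nat.prime_two G, fit_eq_core Nat.prime_two h1 ▸
    inf_cent_fit_le (isSolvable_of_prime_dvd Nat.prime_two Nat.prime_five hd)⟩

theorem Two.nc (t : Two G Q) (hy : y ∈ G) (ho : orderOf y = 5) (hR : Q ≤ R) :
    ¬ zpowers y ≤ 𝐂(R) := fun h => (Nat.Prime.coprime_iff_not_dvd Nat.prime_five).1
  (pgroup_coprime Nat.prime_two t.two (by norm_num)).symm
    (ho ▸ Q.orderOf_dvd_natCard (t.cent ⟨hy, cent_anti hR (h (mem_zpowers y))⟩))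

theorem Two.nu (t : Two G Q) (s : St 3 4 V G β) (hy : y ∈ G) (ho : orderOf y = 5) :
    mu Q β β = 1 :=
  (lemX s hy ho t.nm.le t.two ((zpowers_le.2 hy).trans t.nm.norm) (t.nc hy ho le_rfl)).1

theorem Two.le_zent (t : Two G Q) (s : St 3 4 V G β) (hy : y ∈ G) (ho : orderOf y = 5)
    (hB : B ≤ G ⊓ 𝐂[y]) (h2 : IsPGroup 2 B) : B ≤ zent G :=
  (le_inf le_sup_right (hB.trans inf_le_right)).trans (lemX s hy ho
    (sup_le t.nm.le (hB.trans inf_le_left)) (pgroup_sup t.two h2 (Or.inr ((hB.trans inf_le_left).trans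
      t.nm.norm))) (le_normalizer_sup ((zpowers_le.2 hy).trans t.nm.norm) (le_norm_of_le_cent
        (le_cent_symm (cent_zpowers y ▸ hB.trans inf_le_right)))) (t.nc hy ho le_sup_left)).2

theorem Two.card_C (t : Two G Q) (s : St 3 4 V G β) (hy : y ∈ G) (ho : orderOf y = 5) :
    #|G ⊓ 𝐂[y]| ∣ 10 := by
  haveI := Fact.mk Nat.prime_two
  obtain ⟨P, hP⟩ := exists_isSylowIn 2 (G ⊓ 𝐂[y])
  rw [← card_mul_relIndex_of_le hP.le]
  exact Nat.mul_dvd_mul ((card_dvd_of_le (t.le_zent s hy ho hP.le hP.isPGroup)).trans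
    (card_zent s (nu_of_le s le_rfl t.nm.le (t.nu s hy ho))))
    ((((Nat.Prime.coprime_iff_not_dvd Nat.prime_two).2 hP.not_dvd_relIndex).symm.pow_right
      9).dvd_of_dvd_mul_left ((relIndex_dvd_card' _ _).trans ((card_dvd_of_le inf_le_left).trans
        (not13 s))))

theorem Two.card_G (t : Two G Q) (s : St 3 4 V G β) (hy : y ∈ G) (ho : orderOf y = 5) :
    #|G| ≤ 640 := by
  classical
  have hA := zpowers_le.2 hy
  have hS := syl5 s hy ho
  haveI hc := comm_of_cyclic (cyclic_zpowers y)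
  obtain ⟨γ, hγ⟩ := cs_nonempty s.chr hA (by simp [s.dg])
  have h1 := W.g2 (L := G) hc (inf_le_left.trans s.chr.cf.le_inert)
  rw [Finset.filter_true_of_mem (s.faith_ppd ppd hy ho), (s.orbit_ppd ppd hA (mem_zpowers y) ho hγ
    (mem_cs.1 hγ).1.linChr_of_comm).2.1] at h1
  have h2 := syl_modEq Nat.prime_five hS
  have h3 := card_mul_relIndex_of_le (inf_le_inf_left G (cent_le_norm (zpowers y)))
  have h4 := card_mul_relIndex_of_le (inf_le_left : G ⊓ 𝐍(zpowers y) ≤ G)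
  have hZ : zent Q ≤ G ⊓ 𝐂[y] := fun x hx =>
    have := mem_zent_of_cent s t.nm.le (t.nu s hy ho) (t.nm.le hx.1) hx.2
    ⟨this.1, cent_le_cent1 hy this.2⟩
  have h5 : #|G ⊓ 𝐂(zpowers y)| = 10 := cent_zpowers y ▸ Nat.dvd_antisymm (t.card_C s hy ho)
    (Nat.Coprime.mul_dvd_of_dvd_of_dvd (m := 2) (n := 5) (by norm_num) ((pgroup_dvd_card Nat.prime_two
      (t.two.to_le (zent_le Q)) (zent_ne_bot (pgroup_nil Nat.prime_two t.two) fun e => t.nc hy ho
        le_rfl (by simp [e]))).trans (card_dvd_of_le hZ))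
      (ho ▸ (G ⊓ 𝐂[y]).orderOf_dvd_natCard ⟨hy, self_mem_cent1 y⟩))
  have h6 : (G ⊓ 𝐂(zpowers y)).relIndex (G ⊓ 𝐍(zpowers y)) = 1 → #|G| ≤ 160 := fun e => by
    have sd := B1.burnside_normal_complement Nat.prime_five hS ((relIndex_eq_one.1 e).trans inf_le_right)
    have h7 := not_dvd_card_core Nat.prime_five G
    have := lemY s hy ho sd.left_le (two_of ((card_dvd_of_le sd.left_le).trans (not13 s)) h7) sd.norm
      (t.nc hy ho (le_core t.nm (piGrp_of_isPGroup Nat.prime_two t.two (by simp))))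
    rw [sd.card, Nat.card_zpowers, ho]
    omega
  have h7 := not13 s
  rw [← h4, ← h3, h5] at h7 h6 ⊢
  generalize (G ⊓ 𝐂(zpowers y)).relIndex (G ⊓ 𝐍(zpowers y)) = e at *
  generalize (G ⊓ 𝐍(zpowers y)).relIndex G = n at *
  have h8 : e * n ∣ 2 ^ 8 := Nat.dvd_of_mul_dvd_mul_left (by norm_num : 0 < 10) (mul_assoc 10 e n ▸ h7)
  have h9 := Nat.le_of_dvd (by norm_num) h8
  have h10 := Nat.le_of_dvd (by norm_num) h1
  obtain ⟨j, hj, rfl⟩ := (Nat.dvd_prime_pow Nat.prime_two).1 ((dvd_mul_left n e).trans h8)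
  have h11 := Nat.pos_of_dvd_of_pos h1 (by norm_num)
  have h12 : j = 0 ∨ j = 4 ∨ j = 8 := by
    interval_cases j <;> first | exact absurd h2 (by decide) | simp
  rcases h12 with rfl | rfl | rfl <;> norm_num at h6 h9 ⊢ <;> omega

theorem Two.cent_le (t : Two G Q) (s : St 3 4 V G β) (hy : y ∈ G) (ho : orderOf y = 5) (hx : x ∈ G)
    (hz : x ∉ zent G) : #|G ⊓ 𝐂[x]| ≤ 64 := by
  by_cases h : 5 ∣ #|G ⊓ 𝐂[x]|
  · obtain ⟨z, hz', h1⟩ := exists_mem_orderOf_eq Nat.prime_five h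
    have h2 : x ∈ G ⊓ 𝐂[z] := ⟨hx, mem_cent1_comm.1 hz'.2⟩
    have h3 : (x ^ 2) ^ 5 = 1 := by
      rw [← pow_mul, ← orderOf_dvd_iff_pow_eq_one]
      exact ((G ⊓ 𝐂[z]).orderOf_dvd_natCard h2).trans (t.card_C s hz'.1 h1)
    haveI := Fact.mk Nat.prime_five
    have h4 := orderOf_eq_prime h3 fun e => hz (t.le_zent s hz'.1 h1 (zpowers_le.2 h2) (two_of
      ((card_dvd_of_le (zpowers_le.2 hx)).trans (not13 s)) fun h4 => absurd ((h4.trans
        (Nat.card_zpowers x).dvd).trans (orderOf_dvd_of_pow_eq_one e)) (by norm_num)) (mem_zpowers x))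
    exact (card_le_of_le' (inf_le_inf_left G (cent1_le_cent1_of_mem_zpowers (npow_mem_zpowers x 2)))).trans
      ((Nat.le_of_dvd (by norm_num) (t.card_C s (G.pow_mem hx 2) h4)).trans (by norm_num))
  haveI := Fact.mk Nat.prime_two
  have h1 := card_mul_relIndex_of_le (inf_le_left : G ⊓ 𝐂[x] ≤ G)
  have h2 : 5 ∣ (G ⊓ 𝐂[x]).relIndex G := ((Nat.Prime.dvd_mul Nat.prime_five).1
    (h1 ▸ ho ▸ G.orderOf_dvd_natCard hy)).resolve_left h
  have h3 : 2 ∣ (G ⊓ 𝐂[x]).relIndex G := by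
    by_contra h3
    exact hz (mem_zent_of_cent s t.nm.le (t.nu s hy ho) hx (le_cent1_iff.1
      (((isSylowIn_of_not_dvd_relIndex inf_le_left (two_of ((card_dvd_of_le inf_le_left).trans
        (not13 s)) h) h3).le_of_normalized t.two t.nm.le t.nm.norm).trans inf_le_right)))
  have h4 := Nat.mul_le_mul_left #|G ⊓ 𝐂[x]| (Nat.le_of_dvd (relIndex_pos' _ _)
    (Nat.Coprime.mul_dvd_of_dvd_of_dvd (by norm_num) h3 h2))
  have := t.card_G s hy ho
  omega

end E4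

open E4 in
theorem St.con_34 (s : St 3 4 V G β) : Con 3 4 G := by
  obtain ⟨y, hy, ho⟩ := exists_mem_orderOf_eq Nat.prime_five (ppd.dvd.trans s.dvd_G)
  by_cases hn : G ≤ 𝐍(zpowers y)
  · exact s.fin_ppd ppd hy ho hn
  have t := exists_two s hy ho hn
  have h1 := class_le (fun x => t.cent_le s hy ho) (by norm_num)
  have h2 := Nat.le_of_dvd two_pos (card_zent s (nu_of_le s le_rfl t.nm.le (t.nu s hy ho)))
  have h3 := t.card_G s hy ho
  exact fun h hh => ⟨by omega, fun e => by omega⟩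

end Cfsg.Agent.Tr
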