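import Cfsg.Agent.Tr.Ga
import Cfsg.Agent.H6.Transfer

/-! Free action on cosets; central elements and the derived subgroup. -/

set_option autoImplicit false

namespace Cfsg.Agent.Tr

open Subgroup Cfsg.Agent.H1 Cfsg.Agent.L Cfsg.Agent.H3 Cfsg.Agent.FT
open scoped Pointwise ComplexConjugate commutatorElement

variable {Γ : Type*} [Group Γ] [Finite Γ] {r : ℕ} {G K A N P : Subgroup Γ} {x : Γ}

theorem card_dvd_index_pred (hA : A ≤ N) (h : ∀ a ∈ A, a ≠ 1 → ∀ g, g⁻¹ * a * g ∈ N → g ∈ N) :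
    #|A| ∣ N.index - 1 := by
  have := H2.card_dvd_of_free (A := A) {x : Γ ⧸ N | x ≠ (1 : Γ)} (fun a x hx c => by
    obtain ⟨x, rfl⟩ := QuotientGroup.mk_surjective x
    have : ((a : Γ) * x)⁻¹ * 1 ∈ N := QuotientGroup.eq.1 c
    exact hx (QuotientGroup.eq.2 (by simpa using mul_mem this (hA a.2))))
    fun a x hx c => by
      obtain ⟨x, rfl⟩ := QuotientGroup.mk_surjective x
      have : ((a : Γ) * x)⁻¹ * x ∈ N := QuotientGroup.eq.1 c
      by_contra a1
      exact hx (QuotientGroup.eq.2 (by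
        simpa using h a a.2 (fun c => a1 (Subtype.ext c)) x
          (by simpa [mul_assoc] using inv_mem this)))
  rwa [Nat.card_coe_set_eq, show {x : Γ ⧸ N | x ≠ (1 : Γ)} = {((1 : Γ) : Γ ⧸ N)}ᶜ from rfl,
    Set.ncard_compl, Set.ncard_singleton] at this

theorem card_dvd_relIndex_pred (hA : A ≤ N) (hG : A ≤ G)
    (h : ∀ a ∈ A, a ≠ 1 → ∀ g ∈ G, g⁻¹ * a * g ∈ N → g ∈ N) : #|A| ∣ N.relIndex G - 1 :=
  Nat.card_congr (subgroupOfEquivOfLe hG).toEquiv ▸ card_dvd_index_pred (subgroupOf_mono G hA)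
    fun a ha h1 g => h a ha (fun e => h1 (Subtype.ext e)) g g.2

theorem not_mem_der1 (hr : r.Prime) (hP : IsSylowIn r P K) (hc : IsMulCommutative P) (hx : x ∈ P)
    (h1 : x ≠ 1) (hK : K ≤ 𝐂[x]) : x ∉ ⁅K, K⁆ := by
  haveI := Fact.mk hr
  rw [← map_subtype_commutator]
  rintro ⟨y, hy, rfl⟩
  refine H6.not_mem_commutator_of_controlled (P.subgroupOf K) ⊥ inferInstance (fun a ha b hb => ?_)
    ((Nat.Prime.coprime_iff_not_dvd hr).2 hP.not_dvd_relIndex) y hx (fun e => h1 ?_)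
    ((hP.isPGroup ⟨y, hx⟩).imp fun k e => Subtype.ext (congrArg P.subtype e)) (fun m a _ => ?_) hy
  · rw [mem_bot, show a * b = b * a from Subtype.ext (mul_comm_of_comm hc ha hb),
      mul_inv_cancel_right, mul_inv_cancel]
  · rw [mem_bot.1 e, map_one]
  · have : Commute a y := Subtype.ext (mem_cent1.1 (hK a.2))
    rw [(this.pow_right m).eq, mul_inv_cancel_right, mul_inv_cancel]
    exact one_mem _

end Cfsg.Agent.Tr
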