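import Cfsg.Agent.Tr.Two
import Cfsg.Agent.Tr.Fr

/-! The exceptional pairs `(5, 6)` and `(17, 6)`. -/

set_option autoImplicit false

namespace Cfsg.Agent.Tr

open Subgroup Cfsg.Agent.H1 Cfsg.Agent.L Cfsg.Agent.H3 Cfsg.Agent.FT
open scoped Pointwise ComplexConjugate commutatorElement

variable {Γ : Type*} [Group Γ] [Finite Γ] {p n r : ℕ} {V G H K T A P D : Subgroup Γ}
  {β α γ θ χ : Γ → ℂ} {x y v : Γ}

theorem eq_of_card_sq (hr : r.Prime) (hc : #|P| = r ^ 2) (hD : #|D| = r) (h1 : D ≤ H) (h2 : H ≤ P)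
    (hne : H ≠ D) : H = P := by
  obtain ⟨k, hk, e⟩ := (Nat.dvd_prime_pow hr).1 (hc ▸ card_dvd_of_le h2)
  have := (eq_of_le_of_card_le h1 ·) |>.mt hne.symm
  have := hr.one_lt
  refine eq_of_le_of_card_le h2 ?_
  interval_cases k <;> simp_all <;> omega

theorem sylow_card_eq (hr : r.Prime) (hA : IsSylowIn r A G) {a : ℕ} (h1 : r ^ a ∣ #|G|)
    (h2 : ¬ r ^ (a + 1) ∣ #|G|) : #|A| = r ^ a := by
  obtain ⟨k, hk⟩ := pgroup_card hr hA.isPGroup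
  have h3 := sylow_pow_dvd hr hA h1
  rw [hk, Nat.pow_dvd_pow_iff_le_right hr.one_lt] at h3
  rw [hk, le_antisymm h3 (Nat.le_of_lt_succ (lt_of_not_ge fun h =>
    h2 ((pow_dvd_pow r h).trans (hk ▸ card_dvd_of_le hA.le))))]

namespace St

theorem pow_eq_one (s : St p n V G β) (hr : r.Prime) (hd : ∀ k, 0 < k → k ≤ n → ¬ r ^ 2 ∣ p ^ k - 1)
    (hx : x ∈ G) (h : x ^ r ^ 2 = 1) : x ^ r = 1 := by
  have hZ := zpowers_le.2 hx
  haveI := Fact.mk hr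
  refine mem_bot.1 (s.ker.le (le_ker_of_cs s.chr hZ (zpowers_le.2 (pow_mem (mem_zpowers x) r))
    (fun α hα => zpowers_le.2 ?_) (mem_zpowers _)))
  have hl := (mem_cs.1 hα).1.linChr_of_comm
  rw [hl.mem_cfker, hl.map_pow (mem_zpowers x)]
  by_contra h1
  have h0 := lin_pow_card hl (mem_zpowers x) h
  have h2 : orderOf (α x) = r ^ 2 := orderOf_eq_prime_pow (n := 1) (by simpa using h1) h0
  have := s.orbit_le hZ hl (d := n + 1) fun k h3 h4 e => hd k h3 (Nat.le_of_lt_succ h4)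
    (h2 ▸ orderOf_dvd_of_pow_eq_one (mul_right_cancel₀ (ne_zero_pow (pow_pos hr.pos 2).ne'
      (h0 ▸ one_ne_zero)) (by
        rw [← pow_succ, Nat.sub_add_cancel (pow_pos s.pr.pos k), one_mul]; exact congrFun e x)))
  have := Nat.mul_le_mul_left (n + 1) (Nat.pos_of_ne_zero (mem_cs.1 hα).2)
  omega

theorem use2 (s : St p 6 V G β) (hp : p = 5 ∧ r = 31 ∨ p = 17 ∧ r = 307) (hH : H ≤ G)
    (hA : IsSylowIn r A H) (hc : #|A| = r) : H ≤ 𝐍(A) := by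
  by_contra hn
  obtain ⟨e, ν, t, m, h1, h2, h3, h4, h5, h6, h7, h8, h9, h10⟩ := exists_bad_prime (s.chr.res hH)
    (by rw [s.chr.cfker_res hH, s.ker, inf_bot_eq]) (by rcases hp with ⟨-, rfl⟩ | ⟨-, rfl⟩ <;> norm_num)
    hA hc hn
  have h11 : ¬ p ∣ e := fun h => s.cop (h.trans (h3.trans (card_dvd_of_le hH)))
  rw [show deg (res H β) = 6 from s.dg ▸ by simp [deg]] at h7
  have h12 : (r - 1) * m ^ 2 ≤ (r - 1) * 6 ^ 2 := Nat.mul_le_mul_left _ (Nat.pow_le_pow_left h7 2)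
  have : t ≤ 6 := by omega
  rcases hp with ⟨rfl, rfl⟩ | ⟨rfl, rfl⟩ <;> interval_cases t <;> interval_cases e <;> omega

theorem norm_sq (s : St p 6 V G β) (hp : p = 5 ∧ r = 31 ∨ p = 17 ∧ r = 307) (hP : IsSylowIn r P G)
    (hc : #|P| = r ^ 2) (hx : x ∈ P) (h1 : x ≠ 1) : G ⊓ 𝐂[x] ≤ 𝐍(P) := by
  have hr : r.Prime := by rcases hp with ⟨-, rfl⟩ | ⟨-, rfl⟩ <;> norm_num
  haveI := Fact.mk hr
  have hab := s.comm hr (by omega) hP.le hP.isPGroup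
  have ho : ∀ y ∈ P, y ≠ 1 → #|zpowers y| = r := fun y hy h => (Nat.card_zpowers y).trans
    (orderOf_eq_prime (s.pow_eq_one hr (fun k h1 h2 => by
      rcases hp with ⟨rfl, rfl⟩ | ⟨rfl, rfl⟩ <;> interval_cases k <;> norm_num) (hP.le hy)
      (hc ▸ orderOf_dvd_iff_pow_eq_one.1 (P.orderOf_dvd_natCard hy))) h)
  set K := G ⊓ 𝐂[x]
  have hPK : P ≤ K := le_inf hP.le ((le_cent_self hab).trans (cent_le_cent1 hx))
  have hS := hP.of_le hPK inf_le_left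
  have h2 := not_mem_der1 hr hS hab hx h1 inf_le_right
  obtain ⟨D, hD, h3, h4, h5⟩ : ∃ D, #|D| = r ∧ P ⊓ ⁅K, K⁆ ≤ D ∧ D ≤ P ∧ x ∉ D := by
    by_cases h3 : P ⊓ ⁅K, K⁆ = ⊥
    · obtain ⟨d, hd, h4⟩ := SetLike.not_le_iff_exists.1 fun h : P ≤ zpowers x => by
        have := card_le_of_le h
        rw [hc, ho x hx h1, sq] at this
        exact absurd this (lt_mul_self hr.one_lt).not_ge
      have h5 := ho d hd fun e => h4 (e ▸ one_mem _)
      exact ⟨_, h5, h3.le.trans bot_le, zpowers_le.2 hd, fun h =>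
        h4 ((zpowers_eq_of_prime (h5 ▸ hr) h h1).ge (mem_zpowers d))⟩
    · obtain ⟨d, hd, h4⟩ := exists_mem_ne_one h3
      have h5 := ho d hd.1 h4
      have h6 : P ⊓ ⁅K, K⁆ = zpowers d := by
        by_contra h6
        exact h2 ((eq_of_card_sq hr hc h5 (zpowers_le.2 hd) inf_le_left h6).ge hx).2
      exact ⟨_, h5, h6.le, zpowers_le.2 hd.1, fun h => h2 (h6.ge h).2⟩
  have hM : ⁅K, K⁆ ⊔ D ⊴ K := NormalIn.of_der1_le (sup_le (der1_le K) (h4.trans hPK)) le_sup_left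
  have h6 := sylow_inf_normal' hr hS hM
  rw [inf_comm, sup_inf_modular' h4 (Or.inl ((h4.trans hPK).trans (NormalIn.der1 K).norm)),
    sup_eq_right.2 ((inf_comm _ _).trans_le h3)] at h6
  have h7 := hM.core {r}
  rw [← sylow_eq_core hr h6 (s.use2 hp (hM.le.trans inf_le_left) h6 hD),] at h7
  rw [← eq_of_card_sq hr hc hD le_sup_left (sup_le h4 (zpowers_le.2 hx)) fun e =>
    h5 (e.le (mem_sup_right (mem_zpowers x)))]
  exact le_normalizer_sup h7.norm (le_norm_zpowers_of_cent inf_le_right)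

theorem not_sq_dvd (s : St p 6 V G β) (hp : p = 5 ∧ r = 31 ∨ p = 17 ∧ r = 307) : ¬ r ^ 2 ∣ #|G| := by
  intro h
  have hr : r.Prime := by rcases hp with ⟨-, rfl⟩ | ⟨-, rfl⟩ <;> norm_num
  haveI := Fact.mk hr
  obtain ⟨v, hv, h1⟩ := exists_mem_ne_one s.ne_bot
  obtain ⟨c, hc, hc1, hc2⟩ : ∃ c, p ^ 6 - 1 = r * c ∧ c < r ^ 2 ∧ r.Coprime c := by
    rcases hp with ⟨rfl, rfl⟩ | ⟨rfl, rfl⟩
    exacts [⟨504, by norm_num⟩, ⟨78624, by norm_num⟩]
  have h2 := s.card_G hv h1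
  obtain ⟨D, hD⟩ := exists_isSylowIn r (G ⊓ 𝐂[v])
  have h3 : #|D| = r := (sylow_card_eq hr hD (a := 1) (by
    rw [← h2, hc, sq, mul_assoc, Nat.mul_dvd_mul_iff_left hr.pos] at h
    exact (pow_one r).symm ▸ hc2.dvd_of_dvd_mul_left h) fun e => by
      have := e.trans (s.H_dvd hv h1)
      rcases hp with ⟨rfl, rfl⟩ | ⟨rfl, rfl⟩ <;> revert this <;> decide +kernel).trans (pow_one r)
  obtain ⟨P, hP, hDP⟩ := exists_isSylowIn_ge hD.isPGroup (hD.le.trans inf_le_left)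
  have h4 := sylow_card_eq hr hP h fun e => by
    have := e.trans s.G_dvd
    rcases hp with ⟨rfl, rfl⟩ | ⟨rfl, rfl⟩ <;> revert this <;> decide +kernel
  have hab := s.comm hr (by omega) hP.le hP.isPGroup
  have key : ∀ g ∈ G, ∀ x ∈ P, x ≠ 1 → x ∈ g ⋆ P → g ∈ 𝐍(P) := fun g hg x hx h1 h2 => by
    have hQ := sylow_conj_mem hr hP hg
    exact conj_eq_self_iff.1 (eq_of_le_of_card_le (sylow_le_of_norm hr hP hQ.le hQ.isPGroup (Or.inr
      ((le_inf hQ.le ((le_cent_self (s.comm hr (by omega) hQ.le hQ.isPGroup)).trans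
      (cent_le_cent1 h2))).trans (s.norm_sq hp hP h4 hx h1)))) (card_conj g P).ge)
  obtain ⟨d, hd, h5⟩ := exists_mem_ne_one (ne_bot_of_prime (h3 ▸ hr))
  have h6 : G ⊓ 𝐂[v] ≤ 𝐍(P) := fun g hg => key g hg.1 _
    (hDP ((conj_mem_iff_of_norm (s.use2 hp inf_le_left hD h3 hg)).2 hd))
    (by simpa [mul_inv_eq_one] using h5) (conj_mem_conj g (hDP hd))
  have h7 := card_dvd_relIndex_pred (N := 𝐍(P)) le_normalizer hP.le fun a ha h1 g hg h =>
    key g hg a ha h1 (mem_conj.2 (zpowers_le.1 (sylow_le_of_norm hr hP (zpowers_le.2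
      (mul_mem (mul_mem (inv_mem hg) (hP.le ha)) hg)) (by
        have := pgroup_conj (hP.isPGroup.to_le (zpowers_le.2 ha)) g⁻¹
        rwa [conj_zpowers, inv_inv] at this) (Or.inr (zpowers_le.2 h)))))
  have h8 := relIndex_dvd_of_le_left G h6
  have h9 := card_mul_relIndex_of_le (inf_le_left : G ⊓ 𝐂[v] ≤ G)
  rw [Nat.eq_of_mul_eq_mul_left Nat.card_pos (h9.trans (h2.symm.trans (mul_comm _ _))), hc] at h8
  have h10 := Nat.le_of_dvd (Nat.pos_of_ne_zero fun e => hr.ne_one (by simpa [e] using hc2))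
    (((Nat.Prime.coprime_iff_not_dvd hr).2 (hP.not_dvd_relIndex_of_le le_normalizer)).symm
      |>.dvd_of_dvd_mul_left h8)
  have h11 := Nat.eq_zero_of_dvd_of_lt h7 (by omega)
  have h12 := s.card_dvd ⟨hP.le, relIndex_eq_one.1
    (by have := relIndex_ne_zero' 𝐍(P) G; omega)⟩ hab
  rw [h4, hc, sq, Nat.mul_dvd_mul_iff_left hr.pos] at h12
  exact hr.ne_one (Nat.eq_one_of_dvd_coprimes hc2 dvd_rfl h12)

theorem con_six (s : St p 6 V G β) (hp : p = 5 ∨ p = 17) : Con p 6 G := by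
  obtain ⟨r, hp⟩ : ∃ r, p = 5 ∧ r = 31 ∨ p = 17 ∧ r = 307 := by
    rcases hp with h | h
    exacts [⟨_, Or.inl ⟨h, rfl⟩⟩, ⟨_, Or.inr ⟨h, rfl⟩⟩]
  have hr : r.Prime := by rcases hp with ⟨-, rfl⟩ | ⟨-, rfl⟩ <;> norm_num
  obtain ⟨P, hP⟩ := exists_isSylowIn r G
  have h1 := (sylow_card_eq hr hP (a := 1) (Dvd.dvd.trans (by
    rcases hp with ⟨rfl, rfl⟩ | ⟨rfl, rfl⟩ <;> norm_num) s.dvd_G) (s.not_sq_dvd hp)).trans (pow_one r)
  have hn := s.use2 hp le_rfl hP h1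
  obtain ⟨x, hx, h2⟩ := exists_mem_ne_one (ne_bot_of_prime (h1 ▸ hr))
  obtain rfl := zpowers_eq_of_prime (h1 ▸ hr) hx h2
  have h7 : Nat.Prime 7 := by norm_num
  obtain h3 | ⟨A, m, hA, -, -, -, h4, h5⟩ := s.use1 (r := 7) ⟨h7,
    by rcases hp with ⟨rfl, -⟩ | ⟨rfl, -⟩ <;> norm_num, fun k h1 h2 => by
      rcases hp with ⟨rfl, -⟩ | ⟨rfl, -⟩ <;> interval_cases k <;> norm_num⟩
  · exact h3
  obtain ⟨χ, hχ, h6⟩ := h5 _ (NormalIn.subcent hn) ((NormalIn.subcent hn).le_of_coprime hA.le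
    (pgroup_coprime h7 hA.isPGroup fun e => by
      rw [inf_relIndex_left] at e
      have := e.trans (B1.relIndex_cent_prime_dvd hr h1 hn).1
      rcases hp with ⟨-, rfl⟩ | ⟨-, rfl⟩ <;> omega))
  rw [cent_zpowers] at hχ
  have := s.deg_le_two (hP.le hx) hn (fun k h3 h4 => by
    rw [← Nat.card_zpowers, h1]
    rcases hp with ⟨rfl, rfl⟩ | ⟨rfl, rfl⟩ <;> interval_cases k <;> norm_num) hχ
  have h8 := Nat.le_of_dvd (Nat.totient_pos.2 Nat.card_pos) (Nat.totient_dvd_of_dvd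
    (sylow_pow_dvd h7 hA (a := 1) (Dvd.dvd.trans (by
      rcases hp with ⟨rfl, -⟩ | ⟨rfl, -⟩ <;> norm_num) s.dvd_G)))
  rw [pow_one, Nat.totient_prime h7] at h8
  omega

end St

end Cfsg.Agent.Tr
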