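import Cfsg.Agent.H4.RealVec
import Cfsg.Agent.FT.CFDade

/-! The Brauer lift of a module for a `p'`-group, as a genuine character. -/

set_option autoImplicit false
set_option linter.unusedSectionVars false
set_option linter.style.haveILetI false

namespace Cfsg.Agent.Tr

open Cfsg Cfsg.Agent.H3 Cfsg.Agent.H4 Cfsg.Agent.H5 Polynomial Module
open scoped ComplexConjugate

section Lift
variable {H κ : Type*} [Group H] [Fintype H] [DecidableEq H] [Fintype κ] [DecidableEq κ]
variable {M : Ideal AlgInt} [hMm : M.IsMaximal]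

theorem exists_lift_matrix' (hH : (Nat.card H : Res M) ≠ 0) (ρ : H →* Matrix κ κ (Res M)) :
    ∃ (A : H →* Matrix (H × κ) (H × κ) (locRing M)) (E : Matrix (H × κ) (H × κ) (locRing M)),
      (∀ g, A g * (1 - E) = 1 - E) ∧
      X ^ Fintype.card κ * E.charpoly.map (resHom M) =
        X ^ Fintype.card (H × κ) * (X - 1) ^ Fintype.card κ ∧
      ∀ g, (A g = 1 → ρ g = 1) ∧
      (X - 1) ^ Fintype.card κ * (A g).charpoly.map (resHom M) =
        (X - 1) ^ Fintype.card (H × κ) * (ρ g).charpoly := by
  let I : Matrix (H × κ) κ (Res M) := Matrix.of fun a j => ρ a.1⁻¹ a.2 j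
  let J : Matrix κ (H × κ) (Res M) := Matrix.of fun i a => (Nat.card H : Res M)⁻¹ * ρ a.1 i a.2
  have hJI : J * I = 1 := by
    ext i j
    simp only [Matrix.mul_apply, Fintype.sum_prod_type, I, J, Matrix.of_apply, mul_assoc,
      ← Finset.mul_sum]
    simp only [← Matrix.mul_apply, ← map_mul, mul_inv_cancel, map_one, Finset.sum_const,
      Finset.card_univ, nsmul_eq_mul, ← Nat.card_eq_fintype_card, inv_mul_cancel_left₀ hH]
  have hI : ∀ g, pmH κ (Res M) g * I = I * ρ g := fun g => by
    ext a j
    rw [pmH_mul]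
    simp only [I, Matrix.of_apply, mul_inv_rev, inv_inv, map_mul, Matrix.mul_apply]
  have hJ : ∀ g, J * pmH κ (Res M) g = ρ g * J := fun g => by
    ext a j
    rw [mul_pmH]
    simp only [J, Matrix.of_apply, map_mul, Matrix.mul_apply, Finset.mul_sum, mul_left_comm]
  let Z : Matrix (H × κ) (H × κ) (locRing M) := (I * J).map fun x => ⟨unred M x, unred_mem x⟩
  have hZ : ∀ g, pmH κ _ g * Z = Z * pmH κ _ g := fun g => by
    ext a b
    have h : pmH κ _ g * (I * J) = I * J * pmH κ _ g := by
      rw [← Matrix.mul_assoc, hI, Matrix.mul_assoc, Matrix.mul_assoc, hJ]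
    have := congrFun₂ h a b
    rw [pmH_mul, mul_pmH] at this ⊢
    simp only [Z, Matrix.map_apply, this]
  let φ : Matrix (H × κ) (H × κ) (locRing M) →+* _ := (resHom M).mapMatrix
  have hφ : φ Z = I * J := by
    ext a b
    exact (red_coe M _).symm.trans (red_unred _)
  have hφP : ∀ g, φ (pmH κ _ g) = pmH κ _ g := fun g => by
    ext a b
    simp [φ, pmH, PEquiv.toMatrix_apply, apply_ite (resHom M)]
  obtain ⟨F, h1, r, hr⟩ := BP.exists_fit Z.charpoly_monic
  have h2 : IsIdempotentElem (Z * aeval Z F) := by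
    have := congrArg (aeval Z) hr
    rwa [map_mul _ Z.charpoly, Z.aeval_self_charpoly, zero_mul, map_sub, map_mul, map_mul, aeval_X,
      sub_eq_zero] at this
  have h3 : φ (Z * aeval Z F) = I * J := by
    rw [map_mul_aeval (resHom M) φ (fun c x => by ext; simp [φ]) (by
      rw [hφ, IsIdempotentElem, Matrix.mul_assoc, ← Matrix.mul_assoc J, hJI, Matrix.one_mul]), h1,
      map_one, one_smul, hφ]
  have h4 : ∀ g, pmH κ _ g * (Z * aeval Z F) = Z * aeval Z F * pmH κ _ g := fun g => by
    rw [← mul_assoc, hZ, mul_assoc, BP.mul_aeval_swap (hZ g), mul_assoc]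
  generalize Z * aeval Z F = E at h2 h3 h4
  let A : H →* Matrix (H × κ) (H × κ) (locRing M) :=
    { toFun := fun g => pmH κ _ g * E + (1 - E)
      map_one' := by simp
      map_mul' := fun g h => by
        have e1 : E * (pmH κ _ h * E) = pmH κ _ h * E := by rw [← mul_assoc, ← h4, mul_assoc, h2.eq]
        simp only [map_mul, mul_add, add_mul, mul_sub, sub_mul, mul_assoc, e1, h2.eq, mul_one,
          one_mul]
        abel }
  have h5 : ∀ g, φ (A g) - 1 = I * ((ρ g - 1) * J) := fun g => by
    change φ (pmH κ _ g * E + (1 - E)) - 1 = _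
    rw [map_add, map_mul, map_sub, map_one, h3, hφP, ← Matrix.mul_assoc, hI, Matrix.sub_mul,
      Matrix.mul_sub, Matrix.one_mul, Matrix.mul_assoc]
    abel
  refine ⟨A, E, fun g => ?_, ?_, fun g => ⟨fun h => ?_, ?_⟩⟩
  · change (pmH κ _ g * E + (1 - E)) * (1 - E) = _
    simp only [mul_add, add_mul, mul_sub, sub_mul, mul_assoc, h2.eq, mul_one, one_mul]
    abel
  · have h6 := Matrix.charpoly_mul_comm' I J
    rw [hJI, ← h3, Matrix.charpoly_one] at h6
    rw [← Matrix.charpoly_map]
    exact h6
  · have := congrArg (fun T => J * T * I) (h5 g)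
    simp only [h, map_one, sub_self, Matrix.mul_zero, Matrix.zero_mul, ← Matrix.mul_assoc, hJI,
      Matrix.one_mul] at this
    rw [Matrix.mul_assoc, hJI, Matrix.mul_one] at this
    exact sub_eq_zero.1 this.symm
  · have h6 := Matrix.charpoly_mul_comm' I ((ρ g - 1) * J)
    rw [← h5, Matrix.mul_assoc, hJI, Matrix.mul_one, ← map_one (Matrix.scalar κ),
      ← map_one (Matrix.scalar (H × κ)), Matrix.charpoly_sub_scalar, Matrix.charpoly_sub_scalar] at h6
    have h7 := congrArg (fun q => q.comp (X - 1)) h6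
    simp only [mul_comp, pow_comp, X_comp, comp_assoc, add_comp, one_comp, map_one, sub_add_cancel,
      comp_X] at h7
    rw [← Matrix.charpoly_map]
    exact h7

theorem map_eq_of_red {p m n : ℕ} [Fact p.Prime] [CharP (Res M) p] (hm : ¬p ∣ m) {x y : Fin n → ℂ}
    (hx : ∀ i, x i ^ m = 1) (hy : ∀ i, y i ^ m = 1)
    (h : ∏ i, (X - C (red M (x i))) = ∏ i, (X - C (red M (y i)))) :
    ∑ i, x i = ∑ i, y i := by
  have h1 : ∏ i, (X - C (x i)) = ∏ i, (X - C (y i)) := by
    apply Polynomial.funext
    intro t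
    simpa [eval_prod] using prod_eq_of_red hm hx hy h fun z => t - z
  have h2 := congrArg (fun q : ℂ[X] => q.roots.sum) h1
  simp only [roots_prod_fin] at h2
  exact h2

end Lift

theorem exists_lift {p : ℕ} [hp : Fact p.Prime] {H : Type*} [Group H] [Finite H]
    (hH : ¬p ∣ Nat.card H) {U : Type*} [AddCommGroup U] [Module (ZMod p) U] [Finite U]
    (ρ : Representation (ZMod p) H U) :
    ∃ β : H → ℂ, IsCharacter H β ∧ β 1 = finrank (ZMod p) U ∧ (∀ h, β (h ^ p) = β h) ∧
      (∀ h, β h = β 1 → ρ h = 1) ∧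
      ∀ h, (∀ u, ρ h u = u → u = 0) → ∑ j ∈ Finset.range (orderOf h), β (h ^ j) = 0 := by
  classical
  obtain ⟨M, hM⟩ := exists_isPModular p
  haveI := hM.2.1
  haveI := charP_res hM
  haveI := Fintype.ofFinite H
  obtain ⟨n, hn⟩ : ∃ n, finrank (ZMod p) U = n := ⟨_, rfl⟩
  rw [hn]
  let c := finBasisOfFinrankEq (ZMod p) U hn
  let ι := ZMod.castHom (dvd_refl p) (Res M)
  let ρ' : H →* Matrix _ _ (Res M) := (ι.mapMatrix.toMonoidHom.comp
    (LinearMap.toMatrixAlgEquiv c).toMonoidHom).comp ρ
  have hρ : ∀ h, (ρ' h).charpoly = (ρ h).charpoly.map ι := fun h => by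
    rw [← (ρ h).charpoly_toMatrix c, ← Matrix.charpoly_map]; rfl
  obtain ⟨A, E, hE1, hE2, hA⟩ := exists_lift_matrix' ((CharP.cast_eq_zero_iff _ p _).not.2 hH) ρ'
  let τ : Matrix (H × Fin n) (H × Fin n) (locRing M) →+* End ℂ (H × Fin n → ℂ) :=
    (Matrix.toLinAlgEquiv' (R := ℂ)).toRingEquiv.toRingHom.comp (locRing M).subtype.mapMatrix
  let σ : Representation ℂ H _ := τ.toMonoidHom.comp A
  have hσ : ∀ h, σ h = τ (A h) := fun _ => rfl
  have hτ : ∀ B, (τ B).charpoly = B.charpoly.map (locRing M).subtype := fun B => by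
    rw [← Matrix.charpoly_map, ← Matrix.charpoly_toLin']; rfl
  have hd : finrank ℂ (H × Fin n → ℂ) = Fintype.card (H × Fin n) := finrank_fintype_fun_eq_card ℂ
  have h0 : ∀ k, ((X : (Res M)[X]) - 1) ^ k ≠ 0 := fun k => pow_ne_zero _ (X_sub_C_ne_zero 1)
  have hinv : Fintype.card (H × Fin n) ≤ finrank ℂ σ.invariants + n := by
    have a1 : LinearMap.range (1 - τ E) ≤ σ.invariants := by
      rintro _ ⟨u, rfl⟩ g
      have := congrArg τ (hE1 g)
      rw [map_mul, map_sub, map_one] at this
      exact LinearMap.congr_fun this u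
    have a2 : LinearMap.ker (1 - τ E) ≤ End.eigenspace (τ E) 1 := fun u hu => by
      rw [End.mem_eigenspace_iff, one_smul]
      exact (sub_eq_zero.1 hu).symm
    have a3 := (1 - τ E).finrank_range_add_finrank_ker
    have a4 := (τ E).finrank_eigenspace_le 1
    have a5 := pow_rootMultiplicity_dvd (τ E).charpoly 1
    generalize rootMultiplicity 1 (τ E).charpoly = k at a4 a5
    have a6 : (X - C 1) ^ k ∣ E.charpoly := by
      rw [← map_dvd_map (locRing M).subtype Subtype.val_injective
        ((monic_X_sub_C (1 : locRing M)).pow k), ← hτ]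
      simpa using a5
    have a7 : ((X : (Res M)[X]) - 1) ^ k ∣ X ^ Fintype.card (H × Fin n) * (X - 1) ^ n := by
      have := Polynomial.map_dvd (resHom M) a6
      rw [Fintype.card_fin] at hE2
      rw [← hE2]
      refine Dvd.dvd.mul_left ?_ _
      simpa using this
    have a8 : IsCoprime ((X : (Res M)[X]) - 1) X := ⟨-1, 1, by ring⟩
    have a9 := natDegree_le_of_dvd ((a8.pow).dvd_of_dvd_mul_left a7) (h0 _)
    rw [← C_1, natDegree_pow, natDegree_pow, natDegree_X_sub_C] at a9
    have := Submodule.finrank_mono a1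
    have := Submodule.finrank_mono a2
    omega
  have hnD : n ≤ Fintype.card (H × Fin n) := by
    rw [Fintype.card_prod, Fintype.card_fin]
    exact Nat.le_mul_of_pos_left _ Fintype.card_pos
  let β : H → ℂ := fun h => σ.character h - (Fintype.card (H × Fin n) - n : ℕ)
  have hc := isCharacter_character σ
  have key : ∀ h, ∃ ε : Fin (finrank ℂ (H × Fin n → ℂ)) → ℂ, (∀ i, ε i ^ orderOf h = 1) ∧
      (∀ j : ℕ, σ.character (h ^ j) = ∑ i, ε i ^ j) ∧ ∑ i, ε i ^ p = ∑ i, ε i ∧
      ((∀ u, ρ h u = u → u = 0) → (Finset.univ.filter fun i => ε i = 1).card + n =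
        Fintype.card (H × Fin n)) := fun h => by
    obtain ⟨b, ε, h1', h2⟩ := exists_eigenbasis σ h _ (orderOf_pos h) (pow_orderOf_eq_one h)
    have h1 : ∀ i, ε i ^ Nat.card H = 1 := fun i => by
      obtain ⟨k, hk⟩ := orderOf_dvd_natCard h
      rw [hk, pow_mul, h1', one_pow]
    have hz : ∀ (j : ℤ) i, (ε i ^ j) ^ Nat.card H = 1 := fun j i => by
      rw [← zpow_natCast, ← zpow_mul, mul_comm, zpow_mul, zpow_natCast, h1, one_zpow]
    have hm : ∀ (j : ℤ) i, ε i ^ j ∈ locRing M := fun j i =>
      mem_locRing_of_isIntegral M (isIntegral_of_pow_eq_one Nat.card_pos (hz j i))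
    have h3 : ∀ j : ℤ, (A (h ^ j)).charpoly.map (resHom M) = ∏ i, (X - C (red M (ε i ^ j))) :=
      fun j => by
      have : (A (h ^ j)).charpoly = ∏ i, (X - C ⟨ε i ^ j, hm j i⟩) := by
        apply map_injective (locRing M).subtype Subtype.val_injective
        rw [← hτ]
        refine (charpoly_of_eigenbasis b _ _ (h2 j)).trans ?_
        simp [Polynomial.map_prod]
      simp [this, Polynomial.map_prod, red_of_mem (hm j _)]
    have h4 := fun j : ℤ => (hA (h ^ j)).2
    simp only [h3, hρ] at h4
    have h5 := h4 1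
    simp only [zpow_one] at h5
    refine ⟨ε, h1', fun j => ?_, ?_, fun hf => ?_⟩
    · have := trace_eq_sum_of_eigenbasis b _ _ (h2 j)
      simp only [zpow_natCast] at this
      exact this
    · refine map_eq_of_red (M := M) hH (by simpa using hz p) h1
        (mul_left_cancel₀ (h0 _) (Eq.trans ?_ h5.symm))
      have h6 := congrArg (map (frobenius (Res M) p)) h5
      rw [Polynomial.map_mul, Polynomial.map_mul, map_map,
        Subsingleton.elim (RingHom.comp _ ι) ι] at h6
      simpa [Polynomial.map_prod, frobenius_def, fun i => red_pow (show ε i ∈ locRing M by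
        simpa using hm 1 i) p] using h6
    · have h6 := congrArg (fun q => q.roots.count 1) h5
      have h7 : rootMultiplicity 1 (ρ h).charpoly = 0 := by
        refine rootMultiplicity_eq_zero fun hr => ?_
        obtain ⟨u, hu⟩ := ((End.hasEigenvalue_iff_isRoot_charpoly _ _).2 hr).exists_hasEigenvector
        exact hu.2 (hf u (by simpa using hu.apply_eq_smul))
      rw [eq_rootMultiplicity_map ι.injective, map_one, ← count_roots] at h7
      rw [roots_mul (mul_ne_zero (h0 _) (monic_prod_of_monic _ _ fun _ _ => monic_X_sub_C _).ne_zero),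
        roots_mul (mul_ne_zero (h0 _) ((ρ h).charpoly_monic.map _).ne_zero), ← C_1, roots_pow,
        roots_pow, roots_X_sub_C, roots_prod_fin] at h6
      simp only [Multiset.count_add, Multiset.count_nsmul, Multiset.count_singleton_self, mul_one,
        Fintype.card_fin, Multiset.count_map] at h6
      have h9 : (Finset.univ.filter fun i => ε i = 1).card =
          (Finset.univ.val.filter fun i => 1 = red M (ε i)).card := by
        rw [Finset.card_def, Finset.filter_val]
        congr 1
        exact Multiset.filter_congr fun i _ =>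
          ⟨fun e => by rw [e, red_one], fun e => eq_one_of_red_eq_one hH (h1 i) (Eq.symm e)⟩
      omega
  have hβ1 : β 1 = n := by
    simp only [β, Representation.char_one, hd]
    rw [Nat.cast_sub hnD]; ring
  refine ⟨β, ?_, hβ1, fun h => ?_, fun h e => ?_, fun h hf => ?_⟩
  · haveI : Invertible (Nat.card H : ℂ) := invertibleOfNonzero (Nat.cast_ne_zero.2 Nat.card_pos.ne')
    have e : β = σ.character - ((Fintype.card (H × Fin n) - n : ℕ) : ℂ) • (1 : H → ℂ) := by
      funext h; simp [β]
    refine IsClassFunction.isCharacter_of_classInner (fun g h => ?_) fun ψ hψ => ?_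
    · simp only [β, hc.isClassFunction g h]
    rw [e, classInner_sub_left, classInner_smul_left]
    by_cases h1 : ψ = 1
    · subst h1
      refine ⟨finrank ℂ σ.invariants - (Fintype.card (H × Fin n) - n), ?_⟩
      rw [isIrrCharacter_one.classInner_self,
        Nat.cast_sub (m := Fintype.card (H × Fin n) - n) (by omega), mul_one,
        ← σ.card_inv_mul_sum_char_eq_finrank]
      simp [classInner]
    · obtain ⟨k, hk⟩ := hc.exists_nat_classInner hψ.isCharacter
      exact ⟨k, by rw [hk, isIrrCharacter_one.classInner_of_ne hψ (Ne.symm h1), mul_zero, sub_zero]⟩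
  · obtain ⟨ε, -, h2, h3, -⟩ := key h
    have := h2 1
    simp only [pow_one] at this
    simp only [β, h2, h3, this]
  · have h7 : σ h = 1 := (character_eq_finrank_iff σ h).1 (by
      have := sub_left_injective e
      simpa using this)
    have h8 := (hA h).1 (Matrix.map_injective Subtype.val_injective
      ((Matrix.toLinAlgEquiv'.injective (h7.trans (map_one _).symm)).trans
        (map_one (locRing M).subtype.mapMatrix).symm))
    exact (LinearMap.toMatrixAlgEquiv c).injective (Matrix.map_injective ι.injective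
      (h8.trans ((map_one ρ').symm.trans (by simp [ρ']))))
  · obtain ⟨ε, h1, h2, -, h4⟩ := key h
    have h5 : ∀ i, ∑ j ∈ Finset.range (orderOf h), ε i ^ j = if ε i = 1 then (orderOf h : ℂ) else 0 :=
      fun i => by
      split_ifs with e
      · simp [e]
      · have := geom_sum_mul (ε i) (orderOf h)
        rw [h1, sub_self] at this
        exact (mul_eq_zero.1 this).resolve_right (sub_ne_zero.2 e)
    simp only [β, h2, Finset.sum_sub_distrib]
    rw [Finset.sum_comm]
    simp only [h5, Finset.sum_ite, Finset.sum_const, Finset.card_range, ← h4 hf, Nat.add_sub_cancel]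
    simp [mul_comm]

end Cfsg.Agent.Tr
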