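import Cfsg.Agent.Tr.Ga
import Cfsg.Agent.Tr.Lift
import Cfsg.Agent.S4955

/-! The standing hypothesis holds, and its conclusion gives the class number bound. -/

set_option autoImplicit false
set_option linter.style.haveILetI false

namespace Cfsg.Agent.Tr

open Subgroup Cfsg.Agent.H1 Cfsg.Agent.L Cfsg.Agent.H3 Cfsg.Agent.FT Cfsg.Agent.H4
open scoped Pointwise ComplexConjugate commutatorElement

variable {Γ : Type*} [Group Γ] [Finite Γ] {p n : ℕ} {V G : Subgroup Γ}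

omit [Finite Γ] in
theorem sum_zpowers (g : Γ) [Fintype (zpowers g)] (hg : IsOfFinOrder g) (f : Γ → ℂ) :
    ∑ x : zpowers g, f x = ∑ j ∈ Finset.range (orderOf g), f (g ^ j) := by
  rw [← Fin.sum_univ_eq_sum_range (fun j => f (g ^ j)), ← (finEquivZPowers hg).sum_comp]
  rfl

theorem exists_st (hp : p.Prime) (h0 : V ≠ ⊥) (el : IsElementaryAbelian p V) (hn : G ≤ 𝐍(V))
    (cop : ¬ p ∣ #|G|) (faith : G ⊓ 𝐂(V) = ⊥)
    (tr : ∀ v ∈ V, ∀ w ∈ V, v ≠ 1 → w ≠ 1 → ∃ g ∈ G, g * v * g⁻¹ = w) : ∃ n β, St p n V G β := by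
  haveI := Fact.mk hp
  letI : AddCommGroup (Additive V) := { (inferInstance : AddGroup (Additive V)) with
    add_comm := fun a b => Additive.toMul.injective (el.1.is_comm.comm _ _) }
  haveI : Module (ZMod p) (Additive V) := AddCommGroup.zmodModule fun u =>
    Additive.toMul.injective (Subtype.ext (el.2 _ u.toMul.2))
  let ρ : Representation (ZMod p) G (Additive V) := zmodRep (fun h => AddMonoidHom.mk'
    (fun u => Additive.ofMul ⟨h * u.toMul * (h : Γ)⁻¹,
      (conj_mem_iff_of_norm (hn h.2)).2 u.toMul.2⟩) fun a b =>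
      Additive.toMul.injective (Subtype.ext (by simp)))
    (fun u => Additive.toMul.injective (Subtype.ext (by simp)))
    fun a b u => Additive.toMul.injective (Subtype.ext (by simp [mul_assoc]))
  have hρ : ∀ (h : G) (u : Additive V), ((ρ h u).toMul : Γ) = h * u.toMul * (h : Γ)⁻¹ :=
    fun _ _ => rfl
  obtain ⟨β, h1, h2, h3, h4, h5⟩ := exists_lift cop ρ
  have hc : #|V| = p ^ Module.finrank (ZMod p) (Additive V) := by
    have := Module.natCard_eq_pow_finrank (K := ZMod p) (V := Additive V)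
    rwa [Nat.card_zmod] at this
  have hβ := chr_ebz h1
  have e1 : extendByZero G β 1 = β 1 := ebz_coe G β 1
  refine ⟨_, _, hp, Nat.pos_of_ne_zero fun e => h0 ?_, el, hn, hc, cop, faith, tr, hβ,
    deg_of_eq (e1.trans h2), eq_bot_iff.2 fun x hx => faith.le ⟨hx.1, mem_cent.2 fun v hv => ?_⟩,
    fun g hg => ?_, fun g hg h h6 => ?_⟩
  · rw [← card_eq_one, hc, e, pow_zero]
  · have := hρ ⟨x, hx.1⟩ (Additive.ofMul ⟨v, hv⟩)
    rw [h4 ⟨x, hx.1⟩ ((ebz_of_mem G β hx.1).symm.trans ((apply_of_mem_cfker hx).trans e1))] at this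
    exact eq_mul_inv_iff_mul_eq.1 this
  · exact (ebz_coe G β (⟨g, hg⟩ ^ p)).trans ((h3 _).trans (ebz_of_mem G β hg).symm)
  · haveI := Fintype.ofFinite (zpowers g)
    refine dot_ne_zero_of_mu (mem_cs.1 h6).2 ?_
    have h7 := h5 ⟨g, hg⟩ fun u hu => Additive.toMul.injective (Subtype.ext (h.le ⟨u.toMul.2,
      mem_cent1.2 (mul_inv_eq_iff_eq_mul.1 ((hρ _ u).symm.trans (by rw [hu]))).symm⟩))
    rw [dot_cf1_right, sum_zpowers g (isOfFinOrder_of_finite g), ← orderOf_mk g hg]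
    exact mul_eq_zero_of_right _
      ((Finset.sum_congr rfl fun j _ => ebz_coe G β (⟨g, hg⟩ ^ j)).trans h7)

theorem of_con [Fact p.Prime] (V : Subgroup Γ) [V.Normal] (hVexp : ∀ v ∈ V, v ^ p = 1)
    (hidx : ¬ p ∣ V.index) (hself : centralizer (V : Set Γ) = V) (G : Subgroup Γ)
    (hGV : IsComplement' V G) (tr : ∀ v ∈ V, ∀ w ∈ V, v ≠ 1 → w ≠ 1 → ∃ g ∈ G, g * v * g⁻¹ = w)
    (h : ∀ n β, St p n V G β → Con p n G) : Nat.card (ConjClasses Γ) ≤ #|V| ∧
      (Nat.card (ConjClasses Γ) = #|V| →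
        IsCyclic G ∨ (#|V| = 8 ∧ #|G| = 21) ∨ (#|V| = 9 ∧ #|G| = 16)) := by
  by_cases h0 : V = ⊥
  · subst h0
    haveI : Subsingleton Γ := subsingleton_of_bot_eq_top (α := Subgroup Γ) (by
      rw [← hself]; exact cent_bot) |> fun _ => Subgroup.subsingleton_iff.1 ‹_›
    exact ⟨Finite.card_le_one_iff_subsingleton.2 ConjClasses.mk_surjective.subsingleton |>.trans
      Nat.card_pos,
      fun _ => Or.inl inferInstance⟩
  have el : IsElementaryAbelian p V := ⟨comm_iff_le_cent.2 hself.ge, hVexp⟩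
  obtain ⟨n, β, s⟩ := exists_st Fact.out h0 el (G := G) (le_normalizer_of_normal)
    (hGV.symm.index_eq_card ▸ hidx) (by rw [hself, inf_comm, hGV.disjoint.eq_bot]) tr
  obtain ⟨v, hv, h1⟩ := exists_mem_ne_one h0
  have h2 := S4955.result p V (IsPGroup.of_card s.card) hidx
    (fun a ha b hb => mem_cent.1 (hself.ge hb) a ha) G hGV v hv
  have h3 := s.card_G hv h1
  obtain ⟨h4, h5⟩ := h n β s _ h3
  have h6 := s.one_lt
  rw [s.card] at h2 ⊢
  obtain ⟨q, hq⟩ : ∃ q, p ^ n = q + 1 := ⟨p ^ n - 1, by omega⟩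
  rw [hq] at h2 h3
  rw [Nat.add_sub_cancel, mul_comm] at h3
  rw [mul_add, mul_one] at h2
  exact ⟨by omega, fun e => h5 (by omega)⟩

end Cfsg.Agent.Tr
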