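import Cfsg.Agent.Tr.Two
import Cfsg.Agent.Tr.Fr

/-! Degree two. -/

set_option autoImplicit false

namespace Cfsg.Agent.Tr

open Subgroup Cfsg.Agent.H1 Cfsg.Agent.L Cfsg.Agent.H3 Cfsg.Agent.FT
open scoped Pointwise ComplexConjugate commutatorElement

variable {Γ : Type*} [Group Γ] [Finite Γ] {p n r : ℕ} {V G H K T A P D : Subgroup Γ}
  {β α γ θ χ : Γ → ℂ} {x y u v : Γ}

namespace St

theorem mem_zent_of_eq (s : St p n V G β) (hK : K ≤ G) (hc : IsMulCommutative K) (hu : u ∈ K)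
    (hγ : LinChr K γ) (h : ∀ θ ∈ cs K β, θ u = γ u) : u ∈ zent G := by
  have h1 : β u = deg β * γ u := by
    rw [← res_apply_of_mem β hu, res_eq_sum s.chr hK, ← sum_mu_comm s.chr hK hc, Finset.sum_apply,
      Nat.cast_sum, Finset.sum_mul]
    refine Finset.sum_congr rfl fun θ hθ => ?_
    by_cases h0 : mu K β θ = 0
    · simp [h0]
    · rw [Pi.smul_apply, h θ (mem_cs.2 ⟨mem_irrs.1 hθ, h0⟩), smul_eq_mul]
  refine ⟨hK hu, mem_cent.2 fun g hg => ?_⟩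
  have := s.ker.le (comm_mem_ker s.chr (hK hu) hg (by
    rw [h1, norm_mul, hγ.norm_eq hu, mul_one, deg_eq s.chr]))
  rwa [mem_bot, mul_inv_eq_one, mul_inv_eq_iff_eq_mul] at this

theorem comm2 (s : St p 2 V G β) (hx : x ∈ G) (hz : x ∉ zent G) : IsMulCommutative ↥(G ⊓ 𝐂[x]) := by
  have hZ := zpowers_le.2 hx
  refine comm_of_mult_free s.chr s.ker inf_le_left (le_inf hZ (zpowers_le_cent1 x))
    (inf_le_right.trans (cent_zpowers x).ge) fun θ hθ => mu_le_one_of_card s.chr hZ ?_ hθ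
  obtain ⟨γ, hγ⟩ := cs_nonempty s.chr hZ (s.dg ▸ two_ne_zero)
  rw [s.dg]
  by_contra! h
  exact hz (s.mem_zent_of_eq hZ inferInstance (mem_zpowers x) (mem_cs.1 hγ).1.linChr_of_comm
    fun θ hθ => by rw [Finset.card_le_one.1 (Nat.le_of_lt_succ h) _ hθ _ hγ])

theorem card_le_pow (s : St p n V G β) (hK : K ≤ G) (hc : IsMulCommutative K)
    (h : ∀ γ ∈ cs K β, γ ^ p = γ) : #|K| ≤ (p - 1) ^ n := by
  have h0 : 0 < p - 1 := Nat.sub_pos_of_lt s.pr.one_lt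
  have hl := fun γ (hγ : γ ∈ cs K β) => (mem_cs.1 hγ).1.linChr_of_comm
  let f : K → cs K β → Polynomial.nthRootsFinset (p - 1) (1 : ℂ) := fun x γ =>
    ⟨γ.1 x, (Polynomial.mem_nthRootsFinset h0 1).2 (mul_right_cancel₀ ((hl _ γ.2).ne_zero x.2) (by
      rw [← pow_succ, Nat.sub_add_cancel s.pr.pos, one_mul]; exact congrFun (h _ γ.2) x))⟩
  refine (Nat.card_le_card_of_injective f fun x y e => Subtype.ext (mul_inv_eq_one.1 (mem_bot.1
    (s.ker.le (le_ker_of_cs s.chr hK (zpowers_le.2 (x * y⁻¹).2) (fun γ hγ => zpowers_le.2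
      ((hl γ hγ).mem_cfker.2 ?_)) (mem_zpowers _)))))).trans ?_
  · have e1 : γ x = γ y := congrArg Subtype.val (congrFun e ⟨γ, hγ⟩)
    rw [coe_mul, coe_inv, (hl γ hγ).map_mul x.2 (K.inv_mem y.2), e1,
      ← (hl γ hγ).map_mul y.2 (K.inv_mem y.2), mul_inv_cancel, (hl γ hγ).2]
  · rw [Nat.card_fun, Nat.card_eq_finsetCard, Nat.card_eq_finsetCard]
    exact (Nat.pow_le_pow_left ((Multiset.toFinset_card_le _).trans (Polynomial.card_nthRoots _ _))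
      _).trans (Nat.pow_le_pow_right h0 (s.dg ▸ card_cs_le_deg s.chr hK))

theorem card_zent (s : St p 2 V G β) (h : ¬ IsMulCommutative G) : #|zent G| ∣ p - 1 := by
  haveI := zent_comm G
  obtain ⟨γ, hγ⟩ := cs_nonempty s.chr (zent_le G) (s.dg ▸ two_ne_zero)
  have hl := (mem_cs.1 hγ).1.linChr_of_comm
  by_cases e : γ ^ p ^ 1 = γ
  · simpa using s.modEq (zent_le G) le_rfl (s.cyc_of_normal (zent_normal G) this) (fun α hα =>
      s.faith_of_reg (zent_le G) (s.reg (zent_normal G) this) hα (mem_cs.1 hα).1.linChr_of_comm)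
      hγ hl e
  · exact absurd (comm_of_mult_free s.chr s.ker le_rfl (zent_le G) (le_cent_zent G)
      (s.orbit (zent_le G) hγ hl fun k h1 h2 => by obtain rfl : k = 1 := by omega
                                                   exact e).2.2.1) h

theorem singer (s : St p 2 V G β) (h : ¬ IsMulCommutative G) (hx : x ∈ G) (hz : x ∉ zent G)
    (hT : #|G ⊓ 𝐂[x]| = p ^ 2 - 1) (hc : IsCyclic ↥(G ⊓ 𝐂[x]))
    (h1 : ∀ u ∈ G ⊓ 𝐂[x], u ^ (p - 1) = 1 → u ∈ zent G) : G ≤ 𝐍(G ⊓ 𝐂[x]) := by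
  obtain ⟨v, hv, hv1⟩ := exists_mem_ne_one s.ne_bot
  have h0 : 0 < p - 1 := Nat.sub_pos_of_lt s.pr.one_lt
  have e2 : p ^ 2 - 1 = (p + 1) * (p - 1) := by rw [← Nat.sq_sub_sq, one_pow]
  have hH : #|G ⊓ 𝐂[v]| ∣ p - 1 := by simpa using s.H_dvd hv hv1
  have hG := s.card_G hv hv1
  have hN : ∀ N, N ⊴ G → IsMulCommutative N → ∀ u ∈ N, u ∈ 𝐂[v] → u = 1 := fun N hN hc u hu h2 => by
    by_contra h3
    exact hv1 (mem_bot.1 ((s.reg hN hc u hu h3).le ⟨hv, mem_cent1_comm.1 h2⟩))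
  have hZ := hN _ (zent_normal G) (zent_comm G)
  -- a noncentral element of a centraliser determines it
  have key : ∀ a ∈ G, a ∉ zent G → ∀ b ∈ G ⊓ 𝐂[a], b ∉ zent G → G ⊓ 𝐂[b] = G ⊓ 𝐂[a] := by
    have : ∀ a ∈ G, a ∉ zent G → ∀ b ∈ G ⊓ 𝐂[a], G ⊓ 𝐂[a] ≤ G ⊓ 𝐂[b] := fun a ha h2 b hb =>
      le_inf inf_le_left ((le_cent_self (s.comm2 ha h2)).trans (cent_le_cent1 hb))
    exact fun a ha h2 b hb h3 =>
      le_antisymm (this b hb.1 h3 a ⟨ha, mem_cent1_comm.1 hb.2⟩) (this a ha h2 b hb)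
  have hZl : ∀ a ∈ G, zent G ≤ G ⊓ 𝐂[a] := fun a ha =>
    le_inf (zent_le G) ((zent_le_cent G).trans (cent_le_cent1 ha))
  set T := G ⊓ 𝐂[x]
  have hTH : T ⊓ (G ⊓ 𝐂[v]) = ⊥ := eq_bot_iff.2 fun u hu => hZ u (h1 u hu.1
    (orderOf_dvd_iff_pow_eq_one.1 (((G ⊓ 𝐂[v]).orderOf_dvd_natCard hu.2).trans hH))) hu.2.2
  have hP := (SetProd.of_card (A := T) (B := G ⊓ 𝐂[v]) (H := G) inf_le_left inf_le_left
    (by rw [hTH, card_bot, mul_one, hT, hG])).symm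
  have hZc : #|zent G| = p - 1 := by
    obtain ⟨t, ht⟩ := hc.exists_ofOrder_eq_natCard
    refine Nat.dvd_antisymm (s.card_zent h) ?_
    have h2 : orderOf ((t : Γ) ^ (p + 1)) = p - 1 := by
      rw [orderOf_pow_of_dvd p.succ_ne_zero (by rw [orderOf_coe, ht, hT, e2]; exact dvd_mul_right _ _),
        orderOf_coe, ht, hT, e2, Nat.mul_div_cancel_left _ p.succ_pos]
    exact h2 ▸ (zent G).orderOf_dvd_natCard (h1 _ (T.pow_mem t.2 _) (h2 ▸ pow_orderOf_eq_one _))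
  obtain ⟨y, hy, hy1⟩ := exists_mem_ne_one (H := G ⊓ 𝐂[v]) fun e => h (by
    rw [e, card_bot, mul_one, ← hT] at hG
    exact eq_of_le_of_card_le (inf_le_left : T ≤ G) hG.ge ▸ s.comm2 hx hz)
  have hyZ : y ∉ zent G := fun e => hy1 (hZ y e hy.2)
  have hHD : G ⊓ 𝐂[v] ≤ G ⊓ 𝐂[y] := by
    obtain ⟨W, -, h2, h3, h4⟩ := s.exists_compl hv hv1
    exact le_inf inf_le_left ((comm_eq_bot_iff.1 (eq_bot_iff.2 ((le_inf (der1_le _)
      (B1.der1_le_cent_cyclic (cyclic_of_prime (by simpa [h2] using s.pr)) h3)).trans h4.le))).trans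
      (cent_le_cent1 hy))
  have hyD : y ∈ G ⊓ 𝐂[y] := ⟨hy.1, self_mem_cent1 y⟩
  have hDc := s.comm2 hy.1 hyZ
  set D := G ⊓ 𝐂[y]
  have hTD : T ⊓ D = zent G := le_antisymm (fun u hu => by
    by_contra h2
    exact hy1 (mem_bot.1 (hTH.le ⟨((key y hy.1 hyZ u hu.2 h2).symm.trans
      (key x hx hz u hu.1 h2)).le hyD, hy⟩))) (le_inf (hZl x hx) (hZl y hy.1))
  by_cases h2 : T ⊓ 𝐍(D) ≤ zent G
  · have h3 : ∀ g ∈ G, g ∈ 𝐍(D) → g ∈ D := fun g hg h3 => by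
      obtain ⟨a, ha, t, ht, rfl⟩ := hP.2.2 g hg
      exact mul_mem (hHD ha) (hZl y hy.1 (h2 ⟨ht, (mul_mem_cancel_left (le_normalizer (hHD ha))).1 h3⟩))
    have h4 := card_dvd_relIndex_pred hHD inf_le_left fun a ha ha1 g hg h4 => h3 g hg (by
      have h5 : a ∉ zent G := fun e => ha1 (hZ a e ha.2)
      have h6 : _ = D := key y hy.1 hyZ _ h4 fun e => h5 (by
        simpa [mul_assoc] using (zent_normal G).conj_mem hg e)
      have h7 := congrArg (g ⋆ ·) h6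
      simp only [conj_inf, conj_of_mem hg, conj_cent1, mul_assoc, mul_inv_cancel_left,
        mul_inv_cancel, mul_one] at h7
      exact conj_eq_self_iff.1 (h7.symm.trans (key y hy.1 hyZ a (hHD ha) h5)))
    have h5 := (hP.inf_right hHD).card
    rw [inf_eq_right.2 (inf_le_left : D ≤ G), ← inf_assoc, inf_comm _ T, hTH, bot_inf_eq, card_bot,
      mul_one, hTD, hZc] at h5
    have h6 := card_mul_relIndex_of_le (inf_le_left : D ≤ G)
    rw [h5, ← hG, e2, show (p + 1) * (p - 1) * #|G ⊓ 𝐂[v]| = #|G ⊓ 𝐂[v]| * (p - 1) * (p + 1) by ring]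
      at h6
    rw [Nat.eq_of_mul_eq_mul_left (Nat.mul_pos Nat.card_pos h0) h6, Nat.add_sub_cancel] at h4
    have := (Nat.dvd_sub h4 hH).trans (show p - (p - 1) ∣ 1 by rw [Nat.sub_sub_self s.pr.pos])
    exact absurd (mem_bot.1 ((card_eq_one.1 (Nat.dvd_one.1 this)).le hy)) hy1
  obtain ⟨t, ht, h3⟩ := SetLike.not_le_iff_exists.1 h2
  have hTc := le_cent_self (s.comm2 hx hz)
  have hM : ⁅G, T ⊓ 𝐍(D)⁆ ≤ D := commutator_le.2 fun g hg u hu => by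
    obtain ⟨a, ha, b, hb, rfl⟩ := hP.2.2 g hg
    rw [commutatorElement_def, show a * b * u * (a * b)⁻¹ * u⁻¹ = a * (b * u * b⁻¹ * a⁻¹ * u⁻¹) by group,
      mem_cent.1 (hTc hu.1) b hb, mul_inv_cancel_right]
    exact mul_mem (hHD ha) ((conj_mem_iff_of_norm hu.2).2 (inv_mem (hHD ha)))
  have hcen : ∀ N : Subgroup Γ, ∀ a ∈ N, a ∈ G → a ∉ zent G → N ≤ G ⊓ 𝐂[a] → G ≤ 𝐍(N) →
      G ≤ 𝐍(G ⊓ 𝐂[a]) := fun N a ha h4 h5 h6 h7 => by
    rw [← le_antisymm (inf_le_inf_left G (cent_le_cent1 ha))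
      (le_inf inf_le_left (le_cent_of_le (le_cent_self (s.comm2 h4 h5)) h6))]
    exact (NormalIn.subcent h7).norm
  by_cases h4 : ⁅G, T ⊓ 𝐍(D)⁆ ≤ zent G
  · have h5 : _ = T := key x hx hz t ht.1 h3
    exact h5 ▸ hcen _ t ht ht.1.1 h3 (inf_le_left.trans h5.ge) (comm_le_left_iff.1
      ((commutator_comm _ _).le.trans <| h4.trans
      (le_inf (hZl x hx) ((hZl y hy.1).trans le_normalizer))))
  obtain ⟨m, hm, h5⟩ := SetLike.not_le_iff_exists.1 h4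
  have h6 : _ = D := key y hy.1 hyZ m (hM hm) h5
  exact absurd (hN D ⟨inf_le_left, h6 ▸ hcen _ m hm (hM hm).1 h5 (hM.trans h6.ge)
    (left_le_norm_comm _ _)⟩ hDc y hyD hy.2) hy1

theorem con_n2 (s : St p 2 V G β) (hp : p ≠ 2) : Con p 2 G := by
  have h2 := s.pr.two_le
  have hq : ∀ {T : Subgroup Γ}, p ^ 2 - 1 ∣ #|T| → ∀ k, 0 < k → k < 2 → ¬ #|T| ∣ p ^ k - 1 :=
    fun h k h1 h3 e => by
      obtain rfl : k = 1 := by omega
      have := Nat.le_of_dvd (by rw [pow_one]; omega) (h.trans e)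
      have := Nat.pow_lt_pow_right s.pr.one_lt one_lt_two
      rw [pow_one] at *
      omega
  by_cases h : IsMulCommutative G
  · exact s.gamma (NormalIn.refl G) h inf_le_left (hq s.dvd_G)
  by_cases h1 : ∀ x ∈ G, x ∉ zent G → #|G ⊓ 𝐂[x]| ≤ (p - 1) ^ 2
  · intro c hc
    obtain ⟨v, hv, hv1⟩ := exists_mem_ne_one s.ne_bot
    have h3 := class_le h1 (pow_pos (by omega) 2)
    have h4 := Nat.le_of_dvd (by omega) (s.card_zent h)
    have h5 := Nat.le_of_dvd (by omega) (show #|G ⊓ 𝐂[v]| ∣ p - 1 by simpa using s.H_dvd hv hv1)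
    rw [Nat.eq_of_mul_eq_mul_left (Nat.sub_pos_of_lt s.one_lt) ((s.card_G hv hv1).trans hc.symm)] at h5
    obtain ⟨q, rfl⟩ : ∃ q, p = q + 1 := ⟨p - 1, by omega⟩
    have : (q + 1) ^ 2 = q ^ 2 + 2 * q + 1 := by ring
    rw [Nat.add_sub_cancel] at h3 h4 h5
    exact ⟨by omega, fun e => by omega⟩
  push Not at h1
  obtain ⟨x, hx, hz, h1⟩ := h1
  haveI hc := s.comm2 hx hz
  obtain ⟨γ, hγ, h3⟩ : ∃ γ ∈ cs (G ⊓ 𝐂[x]) β, γ ^ p ≠ γ := by
    by_contra! h3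
    exact h1.not_ge (s.card_le_pow inf_le_left hc h3)
  have hl := (mem_cs.1 hγ).1.linChr_of_comm
  obtain ⟨h4, -, -, h5, h6⟩ := s.orbit inf_le_left hγ hl fun k h1 h2 => by
    obtain rfl : k = 1 := by omega
    rwa [pow_one]
  have cyc := cyclic_of_lin hl h5
  obtain ⟨c, hc'⟩ := (Nat.modEq_iff_dvd' (pow_pos s.pr.pos 2)).1
    (lin_pow_modEq cyc hl h5 (i := 1) fun x _ => (pow_one _).trans (congrFun h6 x).symm)
  have hT : #|G ⊓ 𝐂[x]| = p ^ 2 - 1 := by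
    obtain ⟨q, rfl⟩ : ∃ q, p = q + 3 := ⟨p - 3, by omega⟩
    rw [show q + 3 - 1 = q + 2 from rfl] at h1
    have : (q + 3) ^ 2 = q ^ 2 + 6 * q + 9 := by ring
    have : (q + 2) ^ 2 = q ^ 2 + 4 * q + 4 := by ring
    rcases c with _ | _ | c
    · omega
    · omega
    · rw [show ∀ a, a * (c + 1 + 1) = a * c + 2 * a from fun a => by ring] at hc'
      omega
  refine s.gamma ⟨inf_le_left, s.singer h hx hz hT cyc fun u hu h7 =>
    s.mem_zent_of_eq inf_le_left hc hu hl fun θ hθ => ?_⟩ hc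
    (inf_le_inf_left _ (cent_le_cent1 ⟨hx, self_mem_cent1 x⟩)) (hq hT.symm.dvd)
  obtain ⟨j, hj, rfl⟩ := h4 θ hθ
  interval_cases j
  · rw [pow_zero, pow_one]
  · rw [pow_one, Pi.pow_apply, ← hl.map_pow hu, ← Nat.sub_add_cancel s.pr.pos, pow_succ, h7, one_mul]

end St

end Cfsg.Agent.Tr
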