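import Cfsg.Agent.FT.CFDade

/-! Multiplicities, degrees and constituents of characters as natural numbers. -/

set_option autoImplicit false

namespace Cfsg.Agent.Tr

open Subgroup Cfsg.Agent.H1 Cfsg.Agent.L Cfsg.Agent.H3 Cfsg.Agent.FT
open scoped Pointwise ComplexConjugate commutatorElement

variable {Γ : Type*} [Group Γ] [Finite Γ]

/-- the inner product over `K` as a natural number -/
noncomputable def mu (K : Subgroup Γ) (φ ψ : Γ → ℂ) : ℕ := ⌊(dot K φ ψ).re⌋₊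

/-- the degree as a natural number -/
noncomputable def deg (φ : Γ → ℂ) : ℕ := ⌊(φ 1).re⌋₊

open Classical in
/-- the irreducible constituents of the restriction to `K` -/
noncomputable def cs (K : Subgroup Γ) (φ : Γ → ℂ) : Finset (Γ → ℂ) :=
  (irrs K).filter fun ψ => mu K φ ψ ≠ 0

variable {H H' K K' L N A Z : Subgroup Γ} {φ φ' ψ ψ' χ χ' θ β : Γ → ℂ}

theorem mem_cs : ψ ∈ cs K φ ↔ Irr K ψ ∧ mu K φ ψ ≠ 0 := by simp [cs]

theorem cs_subset : cs K φ ⊆ irrs K := fun _ h => mem_irrs.2 (mem_cs.1 h).1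

theorem mu_of_dot {n : ℕ} (h : dot K φ ψ = n) : mu K φ ψ = n := by simp [mu, h]

theorem mu_congr (h : dot K φ ψ = dot K' φ' ψ') : mu K φ ψ = mu K' φ' ψ' := by rw [mu, h, mu]

theorem dot_eq_mu (hφ : Chr H φ) (hψ : Chr H' ψ) (h : K ≤ H) (h' : K ≤ H') :
    dot K φ ψ = mu K φ ψ := by
  obtain ⟨n, hn⟩ := (hφ.res h).exists_nat_dot (hψ.res h')
  rw [dot_res_left, dot_res_right] at hn
  rw [mu_of_dot hn, hn]

theorem mu_ne_zero (hφ : Chr H φ) (hψ : Chr H' ψ) (h : K ≤ H) (h' : K ≤ H') :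
    mu K φ ψ ≠ 0 ↔ dot K φ ψ ≠ 0 := by rw [dot_eq_mu hφ hψ h h', Nat.cast_ne_zero]

theorem dot_ne_zero_of_mu (h : mu K φ ψ ≠ 0) : dot K φ ψ ≠ 0 := fun e => h (by simp [mu, e])

theorem mu_comm (K : Subgroup Γ) (φ ψ : Γ → ℂ) : mu K φ ψ = mu K ψ φ := by
  rw [mu, mu, ← conj_dot, Complex.conj_re]

omit [Finite Γ] in
theorem deg_of_eq {n : ℕ} (h : φ 1 = n) : deg φ = n := by simp [deg, h]

omit [Finite Γ] in
theorem deg_eq (hφ : Chr H φ) : φ 1 = deg φ := by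
  obtain ⟨n, hn⟩ := hφ.exists_apply_one
  rw [deg_of_eq hn, hn]

omit [Finite Γ] in
theorem deg_pos (hφ : Irr H φ) : 0 < deg φ := by
  obtain ⟨n, h0, hn⟩ := hφ.exists_apply_one
  rwa [deg_of_eq hn]

omit [Finite Γ] in
theorem deg_lin (hφ : LinChr H φ) : deg φ = 1 := deg_of_eq (by simpa using hφ.2)

omit [Finite Γ] in
theorem lin_of_deg (hφ : Chr H φ) (h : deg φ = 1) : LinChr H φ := ⟨hφ, by simp [deg_eq hφ, h]⟩

theorem deg_dvd (hφ : Irr H φ) : deg φ ∣ #|H| := hφ.one_dvd_card (deg_eq hφ.chr)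

theorem mu_irr (hχ : Irr K χ) (hψ : Irr K ψ) [Decidable (χ = ψ)] :
    mu K χ ψ = if χ = ψ then 1 else 0 := by
  apply mu_of_dot; rw [hχ.dot_eq_ite hψ]; split_ifs <;> simp

theorem mu_irr_self (hχ : Irr K χ) : mu K χ χ = 1 := mu_of_dot (by simpa using hχ.dot_self)

theorem res_eq_sum (hφ : Chr H φ) (h : K ≤ H) :
    res K φ = ∑ χ ∈ irrs K, (mu K φ χ : ℂ) • χ := by
  rw [(hφ.res h).cf.eq_sum_irrs]
  refine Finset.sum_congr rfl fun χ hχ => ?_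
  rw [dot_res_left, dot_eq_mu hφ (mem_irrs.1 hχ).chr h le_rfl]

theorem res_eq_sum_cs (hφ : Chr H φ) (h : K ≤ H) :
    res K φ = ∑ χ ∈ cs K φ, (mu K φ χ : ℂ) • χ := by
  rw [res_eq_sum hφ h]
  refine (Finset.sum_subset cs_subset fun χ h1 h2 => ?_).symm
  rw [not_not.1 fun e => h2 (mem_cs.2 ⟨mem_irrs.1 h1, e⟩), Nat.cast_zero, zero_smul]

theorem mu_sum (hφ : Chr H φ) (hL : L ≤ H) (hK : K ≤ L) (hθ : Chr H' θ) (h' : K ≤ H') :
    mu K φ θ = ∑ χ ∈ irrs L, mu L φ χ * mu K χ θ := by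
  apply mu_of_dot
  rw [← dot_res_left_of_le hK, res_eq_sum hφ hL, dot_sum_left]
  push_cast
  refine Finset.sum_congr rfl fun χ hχ => ?_
  rw [dot_smul_left, dot_eq_mu (mem_irrs.1 hχ).chr hθ hK h']

theorem deg_sum (hφ : Chr H φ) (h : K ≤ H) : deg φ = ∑ χ ∈ irrs K, mu K φ χ * deg χ := by
  apply deg_of_eq
  have := congrFun (res_eq_sum hφ h) 1
  rw [res_one] at this
  rw [this, Finset.sum_apply]
  push_cast
  exact Finset.sum_congr rfl fun χ hχ => by rw [Pi.smul_apply, deg_eq (mem_irrs.1 hχ).chr, smul_eq_mul]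

theorem nu_sum (hφ : Chr H φ) (h : K ≤ H) : mu K φ φ = ∑ χ ∈ irrs K, mu K φ χ ^ 2 := by
  rw [mu_sum hφ h le_rfl hφ h]
  exact Finset.sum_congr rfl fun χ _ => by rw [mu_comm K χ, sq]

theorem sum_mu_comm (hφ : Chr H φ) (h : K ≤ H) (hK : IsMulCommutative K) :
    ∑ χ ∈ irrs K, mu K φ χ = deg φ := by
  rw [deg_sum hφ h]
  exact Finset.sum_congr rfl fun χ hχ => by
    rw [deg_lin (mem_irrs.1 hχ).linChr_of_comm, mul_one]

theorem sum_mu_le (hφ : Chr H φ) (h : K ≤ H) {S : Finset (Γ → ℂ)} (hS : S ⊆ irrs K) :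
    ∑ χ ∈ S, mu K φ χ ≤ deg φ := by
  rw [deg_sum hφ h]
  exact (Finset.sum_le_sum fun χ hχ => Nat.le_mul_of_pos_right _
    (deg_pos (mem_irrs.1 (hS hχ)))).trans (Finset.sum_le_sum_of_subset hS)

theorem card_cs_le_deg (hφ : Chr H φ) (h : K ≤ H) : (cs K φ).card ≤ deg φ := by
  refine le_trans ?_ (sum_mu_le hφ h (cs_subset (φ := φ)))
  rw [Finset.card_eq_sum_ones]
  exact Finset.sum_le_sum fun χ hχ => Nat.pos_of_ne_zero (mem_cs.1 hχ).2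

theorem card_cs_le_nu (hφ : Chr H φ) (h : K ≤ H) : (cs K φ).card ≤ mu K φ φ := by
  rw [nu_sum hφ h, Finset.card_eq_sum_ones]
  exact (Finset.sum_le_sum fun χ hχ => Nat.one_le_pow _ _ (Nat.pos_of_ne_zero (mem_cs.1 hχ).2)).trans
    (Finset.sum_le_sum_of_subset cs_subset)

theorem mul_mu_le (hφ : Chr H φ) (hL : L ≤ H) (hK : K ≤ L) (hθ : Chr H' θ) (h' : K ≤ H')
    (hχ : Irr L χ) : mu L φ χ * mu K χ θ ≤ mu K φ θ := by
  rw [mu_sum hφ hL hK hθ h']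
  exact Finset.single_le_sum (f := fun χ => mu L φ χ * mu K χ θ) (fun _ _ => Nat.zero_le _)
    (mem_irrs.2 hχ)

theorem mul_mu_add_le (hφ : Chr H φ) (hL : L ≤ H) (hK : K ≤ L) (hθ : Chr H' θ) (h' : K ≤ H')
    (hχ : Irr L χ) (hχ' : Irr L χ') (hne : χ ≠ χ') :
    mu L φ χ * mu K χ θ + mu L φ χ' * mu K χ' θ ≤ mu K φ θ := by
  classical
  rw [mu_sum hφ hL hK hθ h', ← Finset.sum_pair (f := fun χ => mu L φ χ * mu K χ θ) hne]
  exact Finset.sum_le_sum_of_subset (by simp [Finset.insert_subset_iff, hχ, hχ'])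

theorem mu_le_of_cs (hφ : Chr H φ) (hL : L ≤ H) (hK : K ≤ L) (hθ : Chr H' θ) (h' : K ≤ H')
    (hχ : χ ∈ cs L φ) : mu K χ θ ≤ mu K φ θ :=
  (Nat.le_mul_of_pos_left _ (Nat.pos_of_ne_zero (mem_cs.1 hχ).2)).trans
    (mul_mu_le hφ hL hK hθ h' (mem_cs.1 hχ).1)

theorem cs_trans (hφ : Chr H φ) (hL : L ≤ H) (hK : K ≤ L) (hχ : χ ∈ cs L φ) :
    cs K χ ⊆ cs K φ := fun θ hθ => by
  obtain ⟨h1, h2⟩ := mem_cs.1 hθ
  have := mu_le_of_cs hφ hL hK h1.chr le_rfl hχ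
  exact mem_cs.2 ⟨h1, by omega⟩

theorem exists_cs_over (hφ : Chr H φ) (hL : L ≤ H) (hK : K ≤ L) (hθ : Chr H' θ) (h' : K ≤ H')
    (h : mu K φ θ ≠ 0) : ∃ χ ∈ cs L φ, mu K χ θ ≠ 0 := by
  rw [mu_sum hφ hL hK hθ h'] at h
  obtain ⟨χ, h1, h2⟩ := Finset.exists_ne_zero_of_sum_ne_zero h
  exact ⟨χ, mem_cs.2 ⟨mem_irrs.1 h1, left_ne_zero_of_mul h2⟩, right_ne_zero_of_mul h2⟩

theorem cs_nonempty (hφ : Chr H φ) (h : K ≤ H) (h0 : deg φ ≠ 0) : (cs K φ).Nonempty := by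
  rw [deg_sum hφ h] at h0
  obtain ⟨χ, h1, h2⟩ := Finset.exists_ne_zero_of_sum_ne_zero h0
  exact ⟨χ, mem_cs.2 ⟨mem_irrs.1 h1, left_ne_zero_of_mul h2⟩⟩

theorem deg_le_of_cs (hφ : Chr H φ) (h : K ≤ H) (hχ : χ ∈ cs K φ) : deg χ ≤ deg φ := by
  rw [deg_sum hφ h]
  exact (Nat.le_mul_of_pos_left _ (Nat.pos_of_ne_zero (mem_cs.1 hχ).2)).trans
    (Finset.single_le_sum (f := fun χ => mu K φ χ * deg χ) (fun _ _ => Nat.zero_le _)
      (cs_subset hχ))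

theorem nu_pos (hφ : Chr H φ) (h : K ≤ H) (h0 : deg φ ≠ 0) : 0 < mu K φ φ :=
  (cs_nonempty hφ h h0).card_pos.trans_le (card_cs_le_nu hφ h)

theorem nu_mono (hφ : Chr H φ) (hL : L ≤ H) (hK : K ≤ L) : mu L φ φ ≤ mu K φ φ := by
  rw [nu_sum hφ hL, mu_sum hφ hL hK hφ (hK.trans hL)]
  refine Finset.sum_le_sum fun χ hχ => ?_
  have h1 := mem_irrs.1 hχ
  rw [sq, mu_comm K χ]
  exact Nat.mul_le_mul_left _ ((Nat.le_mul_of_pos_right _ (nu_pos h1.chr hK (deg_pos h1).ne')).trans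
    (mul_mu_le hφ hL hK h1.chr hK h1))

/-- multiplicity-free restriction to an abelian subgroup -/
theorem mu_le_one_of_card (hφ : Chr H φ) (h : K ≤ H) (hc : deg φ ≤ (cs K φ).card) (hχ : Irr K χ) :
    mu K φ χ ≤ 1 := by
  by_contra h1
  have h2 : χ ∈ cs K φ := mem_cs.2 ⟨hχ, by omega⟩
  have h3 := sum_mu_le hφ h (cs_subset (φ := φ))
  have h4 := Finset.sum_lt_sum (s := cs K φ) (f := fun _ => 1) (g := mu K φ)
    (fun χ hχ => Nat.pos_of_ne_zero (mem_cs.1 hχ).2) ⟨χ, h2, by omega⟩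
  rw [← Finset.card_eq_sum_ones] at h4
  omega

theorem nu_eq_of_mu_le_one (hφ : Chr H φ) (h : K ≤ H) (h1 : ∀ χ, Irr K χ → mu K φ χ ≤ 1) :
    mu K φ φ = (cs K φ).card := by
  rw [nu_sum hφ h, Finset.card_eq_sum_ones, ← Finset.sum_subset (cs_subset (φ := φ))]
  · refine Finset.sum_congr rfl fun χ hχ => ?_
    have := h1 χ (mem_cs.1 hχ).1
    have := (mem_cs.1 hχ).2
    rw [show mu K φ χ = 1 by omega, one_pow]
  · intro χ h2 h3
    rw [not_not.1 fun e => h3 (mem_cs.2 ⟨mem_irrs.1 h2, e⟩), zero_pow two_ne_zero]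

theorem card_cs_eq_deg (hφ : Chr H φ) (h : K ≤ H) (hK : IsMulCommutative K)
    (h1 : ∀ χ, Irr K χ → mu K φ χ ≤ 1) : (cs K φ).card = deg φ := by
  rw [← nu_eq_of_mu_le_one hφ h h1, nu_sum hφ h, ← sum_mu_comm hφ h hK]
  refine Finset.sum_congr rfl fun χ hχ => ?_
  have := h1 χ (mem_irrs.1 hχ)
  interval_cases mu K φ χ <;> rfl

theorem le_ker_of_cs (hβ : Chr H β) (h : K ≤ H) (hN : N ≤ K) (hk : ∀ χ ∈ cs K β, N ≤ cfker K χ) :
    N ≤ cfker H β := by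
  rw [← hβ.le_cfker_res_iff h hN, res_eq_sum_cs hβ h]
  exact le_cfker_sum hN fun χ hχ => le_cfker_smul (hk χ hχ) _

theorem comm_of_lin (hβ : Chr H β) (hf : cfker H β = ⊥) (h : K ≤ H)
    (hk : ∀ χ ∈ cs K β, deg χ ≤ 1) : IsMulCommutative K := by
  rw [← comm_self_eq_bot_iff, ← le_bot_iff, ← hf]
  exact le_ker_of_cs hβ h (der1_le K) fun χ hχ => (lin_of_deg (mem_cs.1 hχ).1.chr
    (le_antisymm (hk χ hχ) (deg_pos (mem_cs.1 hχ).1))).der1_le_cfker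

theorem comm_mem_ker (hχ : Chr L χ) {a g : Γ} (ha : a ∈ L) (hg : g ∈ L) (h : ‖χ a‖ = ‖χ 1‖) :
    g * a * g⁻¹ * a⁻¹ ∈ cfker L χ := by
  have := hχ.chr.mem_charKer.1 (hχ.chr.commutator_mem_charKer (z := ⟨a, ha⟩) h ⟨g, hg⟩)
  exact hχ.mem_cfker.2 ⟨L.mul_mem (L.mul_mem (L.mul_mem hg ha) (L.inv_mem hg)) (L.inv_mem ha), this⟩

theorem apply_of_card_cs (hχ : Chr L χ) (h : A ≤ L) (hA : IsMulCommutative A)
    (hc : (cs A χ).card ≤ 1) (hθ : θ ∈ cs A χ) {a : Γ} (ha : a ∈ A) : χ a = deg χ * θ a := by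
  have e : cs A χ = {θ} := Finset.eq_singleton_iff_unique_mem.2
    ⟨hθ, fun x hx => Finset.card_le_one.1 hc _ hx _ hθ⟩
  have h1 := res_eq_sum_cs hχ h
  rw [e, Finset.sum_singleton] at h1
  have h2 := congrFun h1 1
  have h3 := congrFun h1 a
  rw [res_one, Pi.smul_apply, (mem_cs.1 hθ).1.apply_one_of_comm, smul_eq_mul, mul_one,
    deg_eq hχ] at h2
  rwa [res_apply_of_mem _ ha, Pi.smul_apply, smul_eq_mul, ← h2] at h3

theorem comm_le_ker (hχ : Irr L χ) (h : A ≤ L) (hA : IsMulCommutative A)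
    (hc : (cs A χ).card ≤ 1) : ⁅L, A⁆ ≤ cfker L χ := by
  obtain ⟨θ, hθ⟩ := cs_nonempty hχ.chr h (deg_pos hχ).ne'
  refine commutator_le.2 fun g hg a ha => comm_mem_ker hχ.chr (h ha) hg ?_
  rw [apply_of_card_cs hχ.chr h hA hc hθ ha, norm_mul,
    (mem_cs.1 hθ).1.linChr_of_comm.norm_eq ha, mul_one, deg_eq hχ.chr]

theorem le_cent_of_card_cs (hβ : Chr H β) (hf : cfker H β = ⊥) (hL : L ≤ H) (h : A ≤ L)
    (hA : IsMulCommutative A) (hc : ∀ χ ∈ cs L β, (cs A χ).card ≤ 1) : L ≤ 𝐂(A) := by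
  rw [← comm_eq_bot_iff, ← le_bot_iff, ← hf]
  exact le_ker_of_cs hβ hL (comm_le_of_le le_rfl h) fun χ hχ =>
    comm_le_ker (mem_cs.1 hχ).1 h hA (hc χ hχ)

theorem mu_eq_deg_of_cent (hχ : Irr K χ) (h : Z ≤ K) (hc : K ≤ 𝐂(Z)) (hθ : θ ∈ cs Z χ) :
    mu Z χ θ = deg χ := by
  obtain ⟨h1, h2⟩ := mem_cs.1 hθ
  haveI : IsMulCommutative Z := comm_iff_le_cent.2 (h.trans hc)
  have hn : Z ⊴ K := NormalIn.of_le_cent h (le_cent_symm hc)
  have := hχ.one_eq_of_le_inert hn h1 (dot_ne_zero_of_mu h2) fun g hg x => by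
    by_cases hx : x ∈ Z
    · rw [← mem_cent.1 (hc hg) x hx, mul_inv_cancel_right]
    · rw [h1.zero x hx, h1.zero _ fun e => hx ((hn.conj_mem_iff hg).1 e)]
  rw [h1.apply_one_of_comm, mul_one, deg_eq hχ.chr, dot_eq_mu hχ.chr h1.chr h le_rfl] at this
  exact_mod_cast this.symm

theorem deg_le_of_cent (hβ : Chr H β) (hK : K ≤ H) (h : Z ≤ K) (hc : K ≤ 𝐂(Z)) {d : ℕ}
    (hd : ∀ θ, Irr Z θ → mu Z β θ ≤ d) (hχ : χ ∈ cs K β) : deg χ ≤ d := by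
  have h1 := (mem_cs.1 hχ).1
  obtain ⟨θ, hθ⟩ := cs_nonempty h1.chr h (deg_pos h1).ne'
  rw [← mu_eq_deg_of_cent h1 h hc hθ]
  exact (mu_le_of_cs hβ hK h (mem_cs.1 hθ).1.chr le_rfl hχ).trans (hd θ (mem_cs.1 hθ).1)

/-- centralisers of multiplicity-free subgroups are abelian -/
theorem comm_of_mult_free (hβ : Chr H β) (hf : cfker H β = ⊥) (hK : K ≤ H) (h : Z ≤ K)
    (hc : K ≤ 𝐂(Z)) (hd : ∀ θ, Irr Z θ → mu Z β θ ≤ 1) : IsMulCommutative K :=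
  comm_of_lin hβ hf hK fun _ hχ => deg_le_of_cent hβ hK h hc hd hχ

theorem mu_cfAut (hφ : Chr H φ) (hψ : Chr H' ψ) (h : K ≤ H) (h' : K ≤ H') (u : ℂ →+* ℂ) :
    mu K (cfAut u φ) (cfAut u ψ) = mu K φ ψ := by
  apply mu_congr
  have := (hφ.res h).vchr.dot_cfAut (hψ.res h').vchr u
  rwa [← res_cfAut, ← res_cfAut, dot_res_left, dot_res_right, dot_res_left, dot_res_right] at this

theorem lin_pow (hθ : LinChr K θ) {k : ℕ} (hk : k ≠ 0) : LinChr K (θ ^ k) := by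
  obtain ⟨k, rfl⟩ := Nat.exists_eq_succ_of_ne_zero hk
  induction k with
  | zero => simpa using hθ
  | succ k ih => rw [pow_succ]; exact (ih (Nat.succ_ne_zero _)).mul hθ

theorem lin_pow_card (hθ : LinChr K θ) {x : Γ} (hx : x ∈ K) {n : ℕ} (hn : x ^ n = 1) :
    θ x ^ n = 1 := by rw [← hθ.map_pow hx, hn, hθ.2]

theorem cfAut_lin (hθ : LinChr K θ) {n k : ℕ} (hk : k ≠ 0) (hn : ∀ x ∈ K, θ x ^ n = 1)
    {u : ℂ →+* ℂ} (hu : ∀ ε : ℂ, ε ^ n = 1 → u ε = ε ^ k) : cfAut u θ = θ ^ k := by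
  funext x
  by_cases hx : x ∈ K
  · exact hu _ (hn x hx)
  · simp [cfAut, hθ.1.zero x hx, hk]

theorem lin_inj (hθ : LinChr K θ) (hf : cfker K θ = ⊥) {x y : Γ} (hx : x ∈ K) (hy : y ∈ K)
    (e : θ x = θ y) : x = y := by
  have h1 : x * y⁻¹ ∈ cfker K θ := hθ.mem_cfker.2 (by
    rw [hθ.map_mul hx (K.inv_mem hy), e, ← hθ.map_mul hy (K.inv_mem hy), mul_inv_cancel, hθ.2])
  rwa [hf, mem_bot, mul_inv_eq_one] at h1

theorem cyclic_of_lin (hθ : LinChr K θ) (hf : cfker K θ = ⊥) : IsCyclic K := by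
  obtain ⟨i, rfl⟩ := hθ.exists_lin
  refine isCyclic_of_injective_ringHom ((Units.coeHom ℂ).comp i) fun x y e => Subtype.ext ?_
  exact lin_inj hθ hf x.2 y.2 (by simpa using e)

theorem sum_card_cent (H : Subgroup Γ) [Fintype H] :
    ∑ x : H, #|H ⊓ 𝐂[(x : Γ)]| = Nat.card (ConjClasses H) * #|H| := by
  have h1 : ∀ χ ∈ irrs H, ∑ x : H, ‖χ x‖ ^ 2 = (#|H| : ℝ) := fun χ hχ => by
    have := nrm_eq_sum H χ
    rw [(mem_irrs.1 hχ).nrm_eq] at this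
    field_simp [(card_pos_R H).ne'] at this
    exact this.symm
  have h2 : ∑ x : H, (#|H ⊓ 𝐂[(x : Γ)]| : ℝ) = Nat.card (ConjClasses H) * #|H| := by
    simp only [← sum_irrs_norm_sq (Subtype.prop _)]
    rw [Finset.sum_comm, Finset.sum_congr rfl h1, Finset.sum_const, card_irrs, nsmul_eq_mul]
  exact_mod_cast h2

end Cfsg.Agent.Tr
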