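import Cfsg.Agent.Tr.St

/-! The semilinear case, and primitive prime divisors. -/

set_option autoImplicit false

namespace Cfsg.Agent.Tr

open Subgroup Cfsg.Agent.H1 Cfsg.Agent.L Cfsg.Agent.H3 Cfsg.Agent.FT
open scoped Pointwise ComplexConjugate commutatorElement

variable {Γ : Type*} [Group Γ] [Finite Γ] {p n r : ℕ} {V G H K T A : Subgroup Γ}
  {β α γ θ : Γ → ℂ} {x y v : Γ}

theorem sum_split (hT : T ≤ G) [Fintype T] [Fintype G] (f : Γ → ℕ) {c : ℕ}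
    (h : ∀ x ∈ G, x ∉ T → f x ≤ c) : ∑ x : G, f x + #|T| * c ≤ ∑ x : T, f x + #|G| * c := by
  classical
  haveI := Fintype.ofFinite Γ
  have h1 : ∀ g : Γ → ℕ, ∑ x : G, g x = ∑ x : T, g x + ∑ x with x ∈ G ∧ x ∉ T, g x := fun g => by
    rw [sum_coe_eq_sum_filter, sum_coe_eq_sum_filter, ← Finset.sum_filter_add_sum_filter_not
      (Finset.univ.filter (· ∈ G)) (· ∈ T), Finset.filter_filter, Finset.filter_filter]
    simp only [and_iff_right_of_imp (@hT _)]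
  have h2 := h1 fun _ => c
  simp only [Finset.sum_const, Finset.card_univ, smul_eq_mul, ← Nat.card_eq_fintype_card] at h2
  have h3 := Finset.sum_le_card_nsmul (Finset.univ.filter fun x => x ∈ G ∧ x ∉ T) f c fun x hx =>
    h x (Finset.mem_filter.1 hx).2.1 (Finset.mem_filter.1 hx).2.2
  rw [smul_eq_mul] at h3
  rw [h1 f, h2, add_right_comm, ← add_assoc]
  exact Nat.add_le_add_left h3 _

omit [Finite Γ] in
theorem sum_cent_comm (T G : Subgroup Γ) [Fintype T] [Fintype G] :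
    ∑ x : T, #|G ⊓ 𝐂[(x : Γ)]| = ∑ g : G, #|T ⊓ 𝐂[(g : Γ)]| := by
  classical
  have h : ∀ (K : Subgroup Γ) [Fintype K] (x : Γ), #|K ⊓ 𝐂[x]| =
      ∑ g : K, if (g : Γ) * x = x * g then 1 else 0 := fun K _ x => by
    rw [← L.card_subgroupOf_of_le (inf_le_left : K ⊓ 𝐂[x] ≤ K), Nat.card_eq_fintype_card,
      Fintype.card_subtype, Finset.card_filter]
    simp [mem_subgroupOf, mem_cent1]
  simp only [h]
  rw [Finset.sum_comm]
  simp only [eq_comm]

theorem card_cent_le (hT : T ≤ G) (x : Γ) : #|G ⊓ 𝐂[x]| ≤ #|T ⊓ 𝐂[x]| * T.relIndex G := by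
  rw [← card_mul_relIndex_of_le (inf_le_inf_right 𝐂[x] hT), show T ⊓ 𝐂[x] = T ⊓ (G ⊓ 𝐂[x]) by
    rw [← inf_assoc, inf_eq_left.2 hT], inf_relIndex_right]
  exact Nat.mul_le_mul_left _ (relIndex_le_of_le_right inf_le_left (relIndex_ne_zero' _ _))

/-- class number bound from a bound for the centralisers of noncentral elements -/
theorem class_le {c : ℕ} (h : ∀ x ∈ G, x ∉ zent G → #|G ⊓ 𝐂[x]| ≤ c) (hc : 0 < c) :
    Nat.card (ConjClasses G) < #|zent G| + c := by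
  classical
  haveI := Fintype.ofFinite G
  haveI := Fintype.ofFinite (zent G)
  have h1 := sum_split (zent_le G) (fun x => #|G ⊓ 𝐂[x]|) h
  have h2 := Finset.sum_le_card_nsmul Finset.univ (fun x : zent G => #|G ⊓ 𝐂[(x : Γ)]|) #|G|
    fun x _ => card_le_of_le' inf_le_left
  rw [sum_card_cent] at h1
  rw [Finset.card_univ, ← Nat.card_eq_fintype_card, smul_eq_mul] at h2
  have h3 := Nat.mul_pos (Nat.card_pos (α := zent G)) hc
  exact Nat.lt_of_mul_lt_mul_right (a := #|G|) (by rw [add_mul, mul_comm c]; omega)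

theorem num_gamma {e : ℕ} (hp : p.Prime) (hn : 0 < n) (h1 : e ∣ n) (h2 : ¬ p ∣ e) (h3 : 2 ≤ e) :
    (e + 1) * p ^ (n / 2) < p ^ n ∨ (e + 1) * p ^ (n / 2) = p ^ n ∧
      (p ^ n = 8 ∧ e = 3 ∨ p ^ n = 9 ∧ e = 2) := by
  have h4 := Nat.le_of_dvd hn h1
  obtain ⟨m, hm⟩ : ∃ m, n = m + n / 2 := ⟨n - n / 2, by omega⟩
  by_cases h : e + 1 < p ^ m
  · left
    rw [hm, pow_add, ← hm]
    exact Nat.mul_lt_mul_of_pos_right h (pow_pos hp.pos _)
  right
  have k1 : ∀ m, 3 ≤ m → 2 * m < 2 ^ m := fun m h => by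
    induction m, h using Nat.le_induction with
    | base => norm_num
    | succ m h ih => rw [pow_succ]; omega
  have k2 : ∀ m, 2 ≤ m → 2 * m + 1 < 3 ^ m := fun m h => by
    induction m, h using Nat.le_induction with
    | base => norm_num
    | succ m h ih => rw [pow_succ]; omega
  rcases hp.eq_two_or_odd' with rfl | ho
  · have := k1 m
    obtain rfl : e = 3 := by omega
    obtain rfl : n = 3 := by omega
    norm_num
  · have h5 : 3 ≤ p := by have := hp.two_le; obtain ⟨c, hc⟩ := ho; omega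
    have := k2 m
    have := Nat.pow_le_pow_left h5 m
    obtain rfl : m = 1 := by omega
    obtain rfl : n = 2 := by omega
    obtain rfl : e = 2 := by omega
    obtain rfl : p = 3 := by rw [pow_one] at h; omega
    norm_num

/-- the conclusion -/
def Con (p n : ℕ) (G : Subgroup Γ) : Prop := ∀ h, (p ^ n - 1) * h = #|G| →
  Nat.card (ConjClasses G) + h ≤ p ^ n ∧ (Nat.card (ConjClasses G) + h = p ^ n →
    IsCyclic G ∨ (p ^ n = 8 ∧ #|G| = 21) ∨ (p ^ n = 9 ∧ #|G| = 16))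

/-- `r` is a primitive prime divisor of `p ^ n - 1` -/
structure Ppd (p n r : ℕ) : Prop where
  pr : r.Prime
  dvd : r ∣ p ^ n - 1
  prim : ∀ k, 0 < k → k < n → ¬ r ∣ p ^ k - 1

theorem Ppd.lt (h : Ppd p n r) (hp : 0 < p) (hn : 0 < n) : n < r := by
  have h1 := h.pr.two_le
  have h2 : r.Coprime p := (Nat.Prime.coprime_iff_not_dvd h.pr).2 fun e => h.pr.not_dvd_one
    ((Nat.dvd_sub_iff_right (pow_pos hp n) (dvd_pow e hn.ne')).1 h.dvd)
  have h3 := (Nat.modEq_iff_dvd' (pow_pos hp _)).1 (Nat.ModEq.pow_totient h2.symm).symm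
  rw [Nat.totient_prime h.pr] at h3
  by_contra h4
  exact h.prim _ (by omega) (by omega) h3

namespace St

theorem one_lt (s : St p n V G β) : 1 < p ^ n := Nat.one_lt_pow s.pos.ne' s.pr.one_lt

theorem gamma (s : St p n V G β) (hT : T ⊴ G) (hc : IsMulCommutative T) (hs : G ⊓ 𝐂(T) ≤ T)
    (hd : ∀ k, 0 < k → k < n → ¬ #|T| ∣ p ^ k - 1) : Con p n G := by
  classical
  intro h hh
  have reg := s.reg hT hc
  have hf : ∀ γ ∈ cs T β, cfker T γ = ⊥ := fun γ h =>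
    s.faith_of_reg hT.le reg h (mem_cs.1 h).1.linChr_of_comm
  obtain ⟨γ, hγ⟩ := cs_nonempty s.chr hT.le (s.dg ▸ s.pos.ne')
  have hl := (mem_cs.1 hγ).1.linChr_of_comm
  have cyc := cyclic_of_lin hl (hf γ hγ)
  obtain ⟨o1, o2, -⟩ := s.orbit hT.le hγ hl fun k h1 h2 e =>
    hd k h1 h2 (s.modEq hT.le le_rfl cyc hf hγ hl e)
  have h1 := W.g2 (L := G) hc (inf_le_left.trans s.chr.cf.le_inert)
  rw [Finset.filter_true_of_mem hf, o2, le_antisymm hs (le_inf hT.le (le_cent_self hc)),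
    inf_eq_left.2 hT.norm] at h1
  have h2 := card_mul_relIndex_of_le hT.le
  have h3 : ¬ p ∣ T.relIndex G := fun e => s.cop (e.trans (relIndex_dvd_card' _ _))
  have hq := s.one_lt
  have h4 : h ≤ T.relIndex G := by
    obtain ⟨v, hv, hv1⟩ := exists_mem_ne_one s.ne_bot
    rw [Nat.eq_of_mul_eq_mul_left (by omega) (hh.trans (s.card_G hv hv1).symm)]
    refine Nat.le_of_mul_le_mul_left ?_ (Nat.card_pos (α := T))
    rw [h2, ← (SDProd.mk_sup (inf_le_left.trans hT.norm) (eq_bot_iff.2 fun t ht => by_contra fun e =>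
      hv1 (mem_bot.1 ((reg t ht.1 e).le ⟨hv, mem_cent1_comm.1 ht.2.2⟩)))).card]
    exact card_le_of_le' (sup_le hT.le inf_le_left)
  obtain ⟨c, hc'⟩ : ∃ c, p ^ (n / 2) = c + 1 := ⟨_, (Nat.sub_add_cancel (pow_pos s.pr.pos _)).symm⟩
  have h5 : ∀ g ∈ G, g ∉ T → #|T ⊓ 𝐂[g]| ≤ c := fun g hg hgT => by
    obtain ⟨j, hj, e⟩ := o1 (cfJ γ g) (mem_cs.2 ⟨hl.irr.cfJ (hT.norm hg), (mu_congr
      (dot_cfJ_right (hT.norm hg) (s.chr.cf.le_inert hg) γ)).trans_ne (mem_cs.1 hγ).2⟩)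
    have h5 : j ≠ 0 := fun e' => hgT (hs ((W.inf_inert hl (hf γ hγ) G).le
      ⟨⟨hg, hT.norm hg⟩, mem_inert.2 (by simpa [e'] using e)⟩))
    have h6 : #|T ⊓ 𝐂[g]| ∣ p ^ j - 1 := (Nat.modEq_iff_dvd' (pow_pos s.pr.pos j)).1 (lin_pow_modEq
      (cyclic_of_le cyc inf_le_left) (hl.res inf_le_left) (by
        rw [hl.1.cfker_res inf_le_left, hf γ hγ, inf_bot_eq]) fun x hx => by
          have := congrFun e x
          rw [cfJ_apply, ← mem_cent1.1 hx.2, mul_inv_cancel_right] at this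
          simpa [hx] using this)
    have h7 := Nat.dvd_gcd h6 ((card_dvd_of_le inf_le_left).trans (s.card_dvd hT hc))
    rw [Nat.pow_sub_one_gcd_pow_sub_one] at h7
    have h8 := Nat.gcd_pos_of_pos_right j s.pos
    have h9 : j.gcd n ≤ n / 2 := by
      obtain ⟨d, hd⟩ := Nat.gcd_dvd_right j n
      have := Nat.gcd_le_left n (Nat.pos_of_ne_zero h5)
      rcases d with _ | _ | d
      · omega
      · omega
      · rw [mul_add, mul_add] at hd; omega
    have := Nat.le_of_dvd (Nat.sub_pos_of_lt (Nat.one_lt_pow h8.ne' s.pr.one_lt)) h7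
    have := Nat.pow_le_pow_right s.pr.pos h9
    omega
  haveI := Fintype.ofFinite G
  haveI := Fintype.ofFinite T
  have h6 := sum_split hT.le (fun x => #|G ⊓ 𝐂[x]|) fun x hx h =>
    (card_cent_le hT.le x).trans (Nat.mul_le_mul_right _ (h5 x hx h))
  have h7 := sum_split hT.le (fun x => #|T ⊓ 𝐂[x]|) h5
  have h8 := Finset.sum_le_card_nsmul Finset.univ (fun x : T => #|T ⊓ 𝐂[(x : Γ)]|) #|T|
    fun x _ => card_le_of_le' inf_le_left
  rw [sum_card_cent, sum_cent_comm] at h6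
  rw [Finset.card_univ, ← Nat.card_eq_fintype_card, smul_eq_mul] at h8
  have h9 := Nat.card_pos (α := T)
  have h10 := num_gamma s.pr s.pos h1 h3
  have h11 : T.relIndex G = 1 → IsCyclic G := fun e => cyclic_of_le cyc (relIndex_eq_one.1 e)
  have h12 := relIndex_pos' T G
  obtain ⟨q, hq⟩ : ∃ q, p ^ n = q + 1 := ⟨_, (Nat.sub_add_cancel hq.le).symm⟩
  rw [← h2] at h6 h7 hh ⊢
  rw [hc', hq] at h10
  rw [hq, Nat.add_sub_cancel] at hh
  rw [hq]
  generalize T.relIndex G = e, Nat.card (ConjClasses G) = k, #|T| = t at *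
  have e1 : k * e + c ≤ t + e * e * c := Nat.le_of_mul_le_mul_left (by nlinarith) h9
  have e2 : t ≤ q := Nat.le_of_mul_le_mul_right (hh ▸ Nat.mul_le_mul_left q h4) h12
  rcases (by omega : e = 1 ∨ 2 ≤ e) with rfl | he
  · exact ⟨by omega, fun _ => Or.inl (h11 rfl)⟩
  have e3 := Nat.mul_le_mul_right e h4
  obtain ⟨d, rfl⟩ : ∃ d, e = d + 1 := ⟨e - 1, by omega⟩
  rcases h10 he with h' | ⟨h', h''⟩
  · have : (k + h) * (d + 1) < (q + 1) * (d + 1) := by nlinarith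
    have := Nat.lt_of_mul_lt_mul_right this
    exact ⟨this.le, fun e => absurd e this.ne⟩
  · refine ⟨Nat.le_of_mul_le_mul_right (by nlinarith) h12, fun e => Or.inr ?_⟩
    obtain rfl : q = t := le_antisymm (by nlinarith) e2
    rcases h'' with ⟨a, b⟩ | ⟨a, b⟩
    · exact Or.inl ⟨a, by rw [b]; omega⟩
    · exact Or.inr ⟨a, by rw [b]; omega⟩

theorem faith_ppd (s : St p n V G β) (h : Ppd p n r) (hx : x ∈ G) (ho : orderOf x = r) :
    ∀ α ∈ cs (zpowers x) β, cfker (zpowers x) α = ⊥ := by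
  have h1 : (#|zpowers x|).Prime := by rw [Nat.card_zpowers, ho]; exact h.pr
  have h2 := zpowers_le.2 hx
  haveI := comm_of_cyclic (cyclic_zpowers x)
  obtain ⟨γ, hγ, h3⟩ : ∃ γ ∈ cs (zpowers x) β, γ ≠ cf1 (zpowers x) := by
    by_contra! h3
    exact ne_bot_of_prime h1 (le_bot_iff.1 (s.ker ▸ le_ker_of_cs s.chr h2 le_rfl fun γ hγ => by
      rw [h3 γ hγ, cfker_cf1]))
  have hl := (mem_cs.1 hγ).1.linChr_of_comm
  obtain ⟨o1, -⟩ := s.orbit h2 hγ hl fun k h4 h5 e => h.prim k h4 h5 (by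
    have := lin_pow_modEq (cyclic_zpowers x) hl ((faith_of_prime h1 hl.irr).resolve_left h3)
      (i := 1) fun x _ => by simpa using (congrFun e x).symm
    rwa [Nat.card_zpowers, ho, Nat.modEq_iff_dvd' (pow_pos s.pr.pos k)] at this)
  refine fun α hα => (faith_of_prime h1 (mem_cs.1 hα).1).resolve_left fun e => h3 ?_
  obtain ⟨j, -, e'⟩ := o1 α hα
  refine s.pow_inj h2 hl (linChr_cf1 _) (j := j) ?_
  obtain ⟨u, -, hu⟩ := s.gal j
  rw [← e', e, ← hu _ h2 _ (linChr_cf1 _), cfAut_cf1]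

theorem orbit_ppd (s : St p n V G β) (h : Ppd p n r) (hK : K ≤ G) (hx : x ∈ K) (ho : orderOf x = r)
    (hγ : γ ∈ cs K β) (hl : LinChr K γ) :
    (∀ θ ∈ cs K β, ∃ j < n, θ = γ ^ p ^ j) ∧ (cs K β).card = n ∧ (∀ θ, Irr K θ → mu K β θ ≤ 1) ∧
      cfker K γ = ⊥ ∧ γ ^ p ^ n = γ :=
  s.orbit hK hγ hl fun k h1 h2 e => h.prim k h1 h2 (by
    have := s.modEq hK (zpowers_le.2 hx) (cyclic_zpowers x) (s.faith_ppd h (hK hx) ho) hγ hl e
    rwa [Nat.card_zpowers, ho] at this)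

theorem comm_ppd (s : St p n V G β) (h : Ppd p n r) (hx : x ∈ G) (ho : orderOf x = r) :
    IsMulCommutative ↥(G ⊓ 𝐂[x]) := by
  haveI := comm_of_cyclic (cyclic_zpowers x)
  obtain ⟨γ, hγ⟩ := cs_nonempty s.chr (zpowers_le.2 hx) (s.dg ▸ s.pos.ne')
  exact comm_of_mult_free s.chr s.ker inf_le_left (zpowers_le.2 ⟨hx, self_mem_cent1 x⟩)
    (cent_zpowers x ▸ inf_le_right) (s.orbit_ppd h (zpowers_le.2 hx) (mem_zpowers x) ho hγ
      (mem_cs.1 hγ).1.linChr_of_comm).2.2.1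

theorem gamma1 (s : St p n V G β) (hx : x ∈ G) (hn : G ≤ 𝐍(zpowers x))
    (hc : IsMulCommutative ↥(G ⊓ 𝐂[x])) (hd : ∀ k, 0 < k → k < n → ¬ #|G ⊓ 𝐂[x]| ∣ p ^ k - 1) :
    Con p n G :=
  s.gamma (cent_zpowers x ▸ NormalIn.subcent hn) hc
    (inf_le_inf_left _ (cent_le_cent1 ⟨hx, self_mem_cent1 x⟩)) hd

theorem fin_ppd (s : St p n V G β) (h : Ppd p n r) (hx : x ∈ G) (ho : orderOf x = r)
    (hn : G ≤ 𝐍(zpowers x)) : Con p n G :=
  s.gamma1 hx hn (s.comm_ppd h hx ho) fun k h1 h2 e => h.prim k h1 h2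
    ((ho ▸ (G ⊓ 𝐂[x]).orderOf_dvd_natCard ⟨hx, self_mem_cent1 x⟩).trans e)

theorem use1 (s : St p n V G β) (h : Ppd p n r) : Con p n G ∨ ∃ A m, IsSylowIn r A G ∧ 2 ≤ m ∧
    m ∣ n ∧ ¬ p ∣ m ∧ (#|A|).totient < 3 * m ∧ ∀ K, K ⊴ G → A ≤ K → ∃ χ ∈ cs K β, m ≤ deg χ := by
  obtain ⟨A, hA⟩ := exists_isSylowIn r G
  have h0 := sylow_ne_bot h.pr hA (h.dvd.trans s.dvd_G)
  obtain ⟨x, hx, ho⟩ := exists_mem_orderOf_eq h.pr (pgroup_dvd_card h.pr hA.isPGroup h0)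
  haveI hc := s.comm h.pr (h.lt s.pr.pos s.pos) hA.le hA.isPGroup
  have o := fun γ hγ => s.orbit_ppd h hA.le hx ho (γ := γ) hγ (mem_cs.1 hγ).1.linChr_of_comm
  obtain ⟨γ, hγ⟩ := cs_nonempty s.chr hA.le (s.dg ▸ s.pos.ne')
  have cyc := cyclic_of_lin (mem_cs.1 hγ).1.linChr_of_comm (o γ hγ).2.2.2.1
  by_cases hn : G ≤ 𝐍(A)
  · exact Or.inl (s.fin_ppd h (hA.le hx) ho (hn.trans (norm_le_norm_of_cyclic cyc (zpowers_le.2 hx))))
  have hr : ∀ y ∈ A, y ≠ 1 → r ∣ orderOf y := fun y hy h1 => by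
    rw [← Nat.card_zpowers]
    exact pgroup_dvd_card h.pr (hA.isPGroup.to_le (zpowers_le.2 hy)) (by simpa using h1)
  obtain ⟨L, hAL, hL, hK, χ, hχ, e, ν, t, ht, a1, a2, -, -, a3, a4, -, a5, a6, a7⟩ :=
    exists_bad s.chr s.ker h.pr hA cyc h0 (fun y hy h1 => by
      obtain ⟨z, hz, hz'⟩ := exists_mem_orderOf_eq (H := zpowers y) h.pr
        (Nat.card_zpowers y ▸ hr y hy h1)
      have h2 := zpowers_le.2 hy hz
      exact (inf_le_inf_left _ (cent1_le_cent1_of_mem_zpowers hz)).trans (le_cent_of_le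
        (le_cent_self (s.comm_ppd h (hA.le h2) hz'))
        (le_inf hA.le ((le_cent_self hc).trans (cent_le_cent1 h2)))))
      (fun α hα => Or.inr (o α hα).2.2.2.1) (fun α hα α' hα' => by
        obtain ⟨j, hj, rfl⟩ := (o α hα).1 α' hα'
        have hl := (mem_cs.1 hα).1.linChr_of_comm
        refine (eq_or_ne j 0).imp (fun e => by simp [e]) fun e => eq_bot_iff.2 fun y hy => ?_
        by_contra h1
        have h2 := (hl.mul (s.lin hl j).cfStar).mem_cfker.1 hy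
        have h3 := (s.lin hl j).mul_conj hy.1
        have h4 : α (y ^ 1) = α (y ^ p ^ j) := by
          rw [pow_one, hl.map_pow hy.1]
          exact mul_right_cancel₀ (right_ne_zero_of_mul_eq_one h3) (h2.trans h3.symm)
        exact h.prim j (Nat.pos_of_ne_zero e) hj ((hr y hy.1 h1).trans ((Nat.modEq_iff_dvd'
          (pow_pos s.pr.pos j)).1 (pow_eq_pow_iff_modEq.1 (lin_inj hl (o α hα).2.2.2.1
            (A.pow_mem hy.1 _) (A.pow_mem hy.1 _) h4))))) hn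
  have hI := (mem_cs.1 hχ).1
  have h1 : t = deg χ := ht ▸ card_cs_eq_deg hI.chr hAL hc fun θ hθ =>
    (mu_le_of_cs s.chr hL hAL hθ.chr le_rfl hχ).trans ((o γ hγ).2.2.1 θ hθ)
  have h2 := a3 fun h2 => h0 (by rw [← (o _ (cs_trans s.chr hL hAL hχ h2)).2.2.2.1, cfker_cf1])
  refine Or.inr ⟨A, deg χ, hA, h1 ▸ a1, ?_, fun e => s.cop (e.trans ((deg_dvd hI).trans
    (card_dvd_of_le hL))), ?_, fun K h3 h4 => ?_⟩
  · rw [← s.dg, deg_sum s.chr hL]
    refine Finset.dvd_sum fun ψ hψ => ?_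
    by_cases h3 : mu L β ψ = 0
    · simp [h3]
    have hψ' := mem_irrs.1 hψ
    obtain ⟨α, hα⟩ := cs_nonempty hI.chr hAL (deg_pos hI).ne'
    obtain ⟨α', hα'⟩ := cs_nonempty hψ'.chr hAL (deg_pos hψ').ne'
    obtain ⟨j, -, rfl⟩ := (o α (cs_trans s.chr hL hAL hχ hα)).1 α'
      (cs_trans s.chr hL hAL (mem_cs.2 ⟨hψ', h3⟩) hα')
    obtain ⟨u, hu, hu'⟩ := s.gal j
    have hl := (mem_cs.1 hα).1.linChr_of_comm
    have h4 : ψ = cfAut u χ := by
      by_contra h4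
      have h5 := (mul_mu_add_le s.chr hL hAL (s.lin hl j).1 le_rfl hψ' (hI.cfAut u) h4).trans
        ((o γ hγ).2.2.1 _ (s.lin hl j).irr)
      have h6 := mu_cfAut s.chr hI.chr hL le_rfl u
      have h7 := mu_cfAut hI.chr hl.1 hAL le_rfl u
      rw [hu] at h6
      rw [hu' A hA.le α hl] at h7
      rw [h6, h7] at h5
      have := Nat.mul_pos (Nat.pos_of_ne_zero h3) (Nat.pos_of_ne_zero (mem_cs.1 hα').2)
      have := Nat.mul_pos (Nat.pos_of_ne_zero (mem_cs.1 hχ).2) (Nat.pos_of_ne_zero (mem_cs.1 hα).2)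
      omega
    rw [h4, deg_of_eq (φ := cfAut u χ) ((hI.vchr.aut_one u).trans (deg_eq hI.chr))]
    exact dvd_mul_left _ _
  · have h3 := Nat.totient_le #|A|
    obtain rfl : ν = t := le_antisymm (a5 h1.ge) a4
    rw [← h1] at a7 ⊢
    generalize (#|A|).totient = φ at *
    generalize #|A| = R at *
    by_contra! h4
    rcases a7 with h5 | ⟨rfl, h5⟩
    · obtain ⟨c, rfl⟩ := h2
      have : 2 ≤ c := by by_contra h6; interval_cases c <;> omega
      have : R * c ≤ R + e * c * c := Nat.le_of_mul_le_mul_left (by nlinarith) a2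
      nlinarith
    · obtain ⟨c, rfl⟩ : ∃ c, φ = 3 * ν + c := ⟨φ - 3 * ν, by omega⟩
      rw [show 3 * ν + c - ν = 2 * ν + c by omega] at h5
      have : (2 * ν + c) ^ 2 ≤ (3 * ν + c) * ν := Nat.le_of_mul_le_mul_right (by nlinarith) a2
      nlinarith
  · obtain ⟨ψ, hψ, h5⟩ := exists_cs_over s.chr h3.le (hK K h3 h4) hI.chr le_rfl (mem_cs.1 hχ).2
    exact ⟨ψ, hψ, deg_le_of_cs (mem_cs.1 hψ).1.chr (hK K h3 h4) (mem_cs.2 ⟨hI, h5⟩)⟩

end St

end Cfsg.Agent.Tr
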