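import Cfsg.Agent.Tr.W

/-! Characters of small degree of groups with a cyclic TI Sylow subgroup. -/

set_option autoImplicit false

namespace Cfsg.Agent.Tr

open Subgroup Cfsg.Agent.H1 Cfsg.Agent.L Cfsg.Agent.H3 Cfsg.Agent.FT
open scoped Pointwise ComplexConjugate commutatorElement

variable {Γ : Type*} [Group Γ] [Finite Γ] {r : ℕ} {H H' L A B K N : Subgroup Γ}
  {φ χ α ψ θ γ : Γ → ℂ}

theorem mul_nu_le (hφ : Chr H φ) (hN : N ≤ H) (hK : K ≤ N) {e : ℕ}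
    (h : ∀ θ ∈ cs N φ, e ≤ mu K θ θ) : e * mu N φ φ ≤ mu K φ φ := by
  rw [nu_sum hφ hN, mu_sum hφ hN hK hφ (hK.trans hN), Finset.mul_sum]
  refine Finset.sum_le_sum fun χ hχ => ?_
  have h1 := mem_irrs.1 hχ
  by_cases h0 : mu N φ χ = 0
  · simp [h0]
  rw [sq, mu_comm K χ, mul_left_comm]
  exact Nat.mul_le_mul_left _ ((mul_comm e _).trans_le ((Nat.mul_le_mul_left _
    (h χ (mem_cs.2 ⟨h1, h0⟩))).trans (mul_mu_le hφ hN hK h1.chr hK h1)))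

theorem lin_pow_modEq (hA : IsCyclic A) (hα : LinChr A α) (hf : cfker A α = ⊥) {i j : ℕ}
    (h : ∀ x ∈ A, α x ^ i = α x ^ j) : i ≡ j [MOD #|A|] := by
  obtain ⟨a, rfl⟩ := cyclic_iff.1 hA
  rw [Nat.card_zpowers, ← pow_eq_pow_iff_modEq]
  exact lin_inj hα hf (pow_mem (mem_zpowers a) _) (pow_mem (mem_zpowers a) _) (by
    rw [hα.map_pow (mem_zpowers a), hα.map_pow (mem_zpowers a), h a (mem_zpowers a)])

theorem mu_cf1_left (h : K ≤ L) (θ : Γ → ℂ) : mu K (cf1 L) θ = mu K (cf1 K) θ :=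
  mu_congr (by rw [← dot_res_left, res_cf1 h])

theorem mu_cf1_right (h : K ≤ L) (θ : Γ → ℂ) : mu K θ (cf1 L) = mu K θ (cf1 K) := by
  rw [mu_comm, mu_cf1_left h, mu_comm]

theorem mu_mul_star (hχ : Chr L χ) (h : K ≤ L) : mu K (χ * cfStar χ) (cf1 K) = mu K χ χ :=
  mu_congr (by rw [dot_mul_left, cfStar_cfStar, mul_cf1, dot_res_right])

theorem mu_symm (u : ℂ ≃+* ℂ) (hψ : Chr H ψ) (hθ : Chr H' θ) (h : K ≤ H) (h' : K ≤ H') :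
    mu K (cfAut (u.symm : ℂ →+* ℂ) ψ) θ = mu K ψ (cfAut (u : ℂ →+* ℂ) θ) := by
  rw [← mu_cfAut (hψ.cfAut _) hθ h h' (u : ℂ →+* ℂ)]
  congr 1
  funext x; simp [cfAut]

theorem lin_pow_A (hα : LinChr A α) {k : ℕ} (hk : k ≠ 0) {u : ℂ →+* ℂ}
    (hu : ∀ ε : ℂ, ε ^ #|A| = 1 → u ε = ε ^ k) : cfAut u α = α ^ k :=
  cfAut_lin hα hk (fun _ hx => lin_pow_card hα hx
    (orderOf_dvd_iff_pow_eq_one.1 (A.orderOf_dvd_natCard hx))) hu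

/-- the powers of a faithful character with exponent prime to `|A|` -/
theorem sum_pow_le (hA : IsCyclic A) (h1 : A ≠ ⊥) (hα : LinChr A α) (hf : cfker A α = ⊥)
    [DecidableEq (Γ → ℂ)] (f : (Γ → ℂ) → ℕ) {S : Finset ℕ}
    (hS : S ⊆ (Finset.range #|A|).filter (#|A|).Coprime) :
    ∑ k ∈ S, f (α ^ k) ≤ ∑ γ ∈ (irrs A).erase (cf1 A), f γ := by
  have h2 : 1 < #|A| := (one_lt_card_iff_ne_bot A).2 h1
  have h3 : ∀ k ∈ S, k < #|A| ∧ ¬ #|A| ∣ k := fun k hk => by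
    obtain ⟨h3, h4⟩ := Finset.mem_filter.1 (hS hk)
    exact ⟨Finset.mem_range.1 h3, fun e => h2.ne' (Nat.Coprime.eq_one_of_dvd h4 e)⟩
  rw [← Finset.sum_image (g := fun k => α ^ k) fun i hi j hj e =>
    Nat.ModEq.eq_of_lt_of_lt (lin_pow_modEq hA hα hf fun x _ => congrFun e x) (h3 i hi).1 (h3 j hj).1]
  refine Finset.sum_le_sum_of_subset (Finset.image_subset_iff.2 fun k hk => Finset.mem_erase.2
    ⟨fun e => (h3 k hk).2 (Nat.modEq_zero_iff_dvd.1 (lin_pow_modEq hA hα hf fun x hx => ?_)),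
      mem_irrs.2 (lin_pow hα fun e => (h3 k hk).2 (by simp [e])).irr⟩)
  simpa [hx] using congrFun e x

theorem orbit_le (hA : IsCyclic A) (h1 : A ≠ ⊥) (hAL : A ≤ L) (hψ : Irr L ψ) (hγ : γ ∈ cs A ψ)
    (hf : cfker A γ = ⊥) [DecidableEq (Γ → ℂ)] (σ : ℕ → ℂ ≃+* ℂ) {S : Finset ℕ}
    (hS : S ⊆ (Finset.range #|A|).filter (#|A|).Coprime)
    (hσ : ∀ k ∈ S, ∀ ε : ℂ, ε ^ #|A| = 1 → σ k ε = ε ^ k) (c : (Γ → ℂ) → ℤ) {P Q : ℤ}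
    (hP : 0 ≤ P) (hQ : 0 ≤ Q) :
    ∑ k ∈ S, (2 * Q * P * c (cfAut ((σ k).symm : ℂ →+* ℂ) ψ) -
      P ^ 2 * (∑ γ ∈ (irrs A).erase (cf1 A), mu A ψ γ : ℕ)) ≤
      ∑ ψ' ∈ S.image fun k => cfAut ((σ k).symm : ℂ →+* ℂ) ψ, Q ^ 2 * max (c ψ') 0 ^ 2 := by
  haveI := comm_of_cyclic hA
  have h2 : 1 < #|A| := (one_lt_card_iff_ne_bot A).2 h1
  rw [Finset.sum_comp (fun ψ' => 2 * Q * P * c ψ' -
    P ^ 2 * (∑ γ ∈ (irrs A).erase (cf1 A), mu A ψ γ : ℕ))]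
  refine Finset.sum_le_sum fun ψ' hψ' => ?_
  obtain ⟨j, hj, rfl⟩ := Finset.mem_image.1 hψ'
  obtain ⟨h3, h4⟩ := mem_cs.1 hγ
  have h5 := h3.linChr_of_comm.cfAut ((σ j).symm : ℂ →+* ℂ)
  have h6 := sum_pow_le hA h1 h5 ((cfker_cfAut A _ γ).trans hf) (mu A ψ)
    ((Finset.filter_subset (fun k => cfAut ((σ k).symm : ℂ →+* ℂ) ψ =
      cfAut ((σ j).symm : ℂ →+* ℂ) ψ) S).trans hS)
  have h7 := Finset.card_nsmul_le_sum _ _ 1 fun k (hk : k ∈ S.filter fun k =>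
      cfAut ((σ k).symm : ℂ →+* ℂ) ψ = cfAut ((σ j).symm : ℂ →+* ℂ) ψ) =>
    show 1 ≤ mu A ψ (cfAut ((σ j).symm : ℂ →+* ℂ) γ ^ k) by
      obtain ⟨h7, h8⟩ := Finset.mem_filter.1 hk
      rw [← lin_pow_A h5 (fun e => by simpa [e, h2.ne'] using hS h7) (u := σ k) (hσ k h7),
        ← mu_symm (σ k) hψ.chr h5.1 hAL le_rfl, h8, mu_cfAut hψ.chr h3.chr hAL le_rfl]
      exact Nat.pos_of_ne_zero h4
  have h8 := h7.trans h6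
  rw [smul_eq_mul, mul_one] at h8
  rw [nsmul_eq_mul]
  generalize (∑ γ ∈ (irrs A).erase (cf1 A), mu A ψ γ : ℕ) = w at *
  generalize Finset.card _ = n at *
  generalize c _ = x
  have h9 : (n : ℤ) ≤ w := by exact_mod_cast h8
  have h10 : (0 : ℤ) ≤ n := n.cast_nonneg
  rcases le_total (2 * Q * P * x - P ^ 2 * w) 0 with h | h
  · exact (mul_nonpos_of_nonneg_of_nonpos h10 h).trans (by positivity)
  · refine (mul_le_mul_of_nonneg_right h9 h).trans ?_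
    have h11 : x ≤ max x 0 := le_max_left _ _
    have h12 := mul_le_mul_of_nonneg_left h11 (show 0 ≤ 2 * Q * P * w by positivity)
    nlinarith [sq_nonneg (Q * max x 0 - P * w)]

namespace W

theorem test (w : W r L A B) (hα : LinChr A α) (hf : cfker A α = ⊥) [DecidableEq (Γ → ℂ)] :
    ∑ ψ ∈ (irrs L).erase (cf1 L), max ((mu (L ⊓ 𝐂(A)) ψ (cf1 (L ⊓ 𝐂(A))) : ℤ) -
      mu (L ⊓ 𝐂(A)) ψ (cfDp w.dp α (cf1 B))) 0 ^ 2 + 1 ≤ (L ⊓ 𝐂(A)).relIndex (L ⊓ 𝐍(A)) := by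
  have hCN := CN L A
  have h1 := irr_cf1 (L ⊓ 𝐂(A))
  have h2 := irr_cfDp w.dp hα.irr (irr_cf1 B)
  have h3 : res A (cfDp w.dp α (cf1 B)) = α := by rw [res_cfDp_left _ hα.1.zero, cf1_one, one_smul]
  have hne : cf1 (L ⊓ 𝐂(A)) ≠ cfDp w.dp α (cf1 B) := fun e => w.ne (by
    rw [← hf, ← h3, ← e, res_cf1 w.dp.left_le, cfker_cf1])
  have hi : L ⊓ 𝐍(A) ≤ inert (cf1 (L ⊓ 𝐂(A))) := fun g hg => mem_inert.2 (cfJ_cf1 (hCN.norm hg))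
  have h4 : Irr (L ⊓ 𝐍(A)) (ind (L ⊓ 𝐍(A)) (L ⊓ 𝐂(A)) (cfDp w.dp α (cf1 B))) :=
    h2.ind_of_inert_le hCN fun g hg => (inf_inert hα hf L).le ⟨hg.1, mem_inert.2 (by
      rw [← h3, ← res_cfJ hg.1.2, mem_inert.1 hg.2])⟩
  have h5 : CFOn (L ⊓ 𝐂(A)) {x | x ∈ L ⊓ 𝐂(A) ∧ x ∉ B} (cf1 (L ⊓ 𝐂(A)) - cfDp w.dp α (cf1 B)) := by
    refine ⟨h1.cf.sub h2.cf, fun x hx => ?_⟩
    by_cases h : x ∈ L ⊓ 𝐂(A)
    · have h' : x ∈ B := by_contra fun e => hx ⟨h, e⟩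
      rw [Pi.sub_apply, cfDp_apply_right _ _ _ h', hα.2, cf1_of_mem h, cf1_of_mem h', mul_one, sub_self]
    · rw [Pi.sub_apply, h1.zero x h, h2.zero x h, sub_self]
  have h6 := h5.ind_of_invariant hCN.le w.ti.conj_mem
  have h7 := w.ti.dot_ind_ind h6 h6
  rw [ind_ind _ inf_le_left] at h7
  rw [map_sub (ind (L ⊓ 𝐍(A)) _), dot_sub_self_of_ortho (by
    rw [dot_ind_ind_normal hCN h1 h2, cfclass_of_le_inert h1 hi, if_neg (by simpa using hne.symm)]),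
    h4.dot_self, dot_ind_self_normal hCN h1, inf_eq_left.2 hi] at h7
  obtain ⟨n, hn, h8, h9⟩ := ((h1.vchr.sub h2.vchr).ind (inf_le_left : _ ≤ L)).exists_eq_sum_int
  have h10 : ∀ ψ ∈ irrs L, n ψ = (mu (L ⊓ 𝐂(A)) ψ (cf1 (L ⊓ 𝐂(A))) : ℤ) -
      mu (L ⊓ 𝐂(A)) ψ (cfDp w.dp α (cf1 B)) := fun ψ hψ => by
    have h := mem_irrs.1 hψ
    have := hn ψ h
    rw [frob_left inf_le_left h5.cf h.cf, dot_sub_left, dot_eq_mu h1.chr h.chr le_rfl inf_le_left,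
      dot_eq_mu h2.chr h.chr le_rfl inf_le_left, mu_comm, mu_comm _ (cfDp _ _ _)] at this
    exact_mod_cast this.symm
  have h11 : n (cf1 L) = 1 := by
    rw [h10 _ (cf1_mem_irrs L), mu_cf1_left inf_le_left, mu_cf1_left inf_le_left, mu_irr_self h1,
      mu_irr h1 h2, if_neg hne]; rfl
  have h12 : ∑ ψ ∈ irrs L, n ψ ^ 2 = (L ⊓ 𝐂(A)).relIndex (L ⊓ 𝐍(A)) + 1 := by
    rw [nrm_eq_of_dot (r := (L ⊓ 𝐂(A)).relIndex (L ⊓ 𝐍(A)) + 1) (by rw [h7]; simp)] at h9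
    exact_mod_cast h9.symm
  obtain ⟨ψ₀, h13, h14⟩ : ∃ ψ ∈ irrs L, n ψ < 0 := by
    by_contra! h
    have h13 := congrFun h8 1
    rw [ind_one inf_le_left, h5.apply_one fun e => e.2 B.one_mem, mul_zero, Finset.sum_apply,
      Finset.sum_congr rfl (g := fun ψ => ((n ψ * deg ψ : ℤ) : ℂ)) fun ψ hψ => by
        rw [Pi.smul_apply, deg_eq (mem_irrs.1 hψ).chr, smul_eq_mul]; push_cast; rfl] at h13
    have h14 : ∑ ψ ∈ irrs L, n ψ * deg ψ = 0 := by exact_mod_cast h13.symm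
    have := Finset.single_le_sum (f := fun ψ => n ψ * deg ψ)
      (fun ψ hψ => mul_nonneg (h ψ hψ) (Nat.cast_nonneg _)) (cf1_mem_irrs L)
    rw [h14, h11, deg_lin (linChr_cf1 L)] at this
    simp at this
  have h15 : ψ₀ ∈ (irrs L).erase (cf1 L) := Finset.mem_erase.2 ⟨fun e => by
    rw [e, h11] at h14; simp at h14, h13⟩
  rw [← Finset.add_sum_erase _ _ (cf1_mem_irrs L), h11] at h12
  rw [Finset.sum_congr rfl (g := fun ψ => max (n ψ) 0 ^ 2) fun ψ hψ => by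
    rw [h10 ψ (Finset.mem_of_mem_erase hψ)]]
  have := Finset.sum_lt_sum (f := fun ψ => max (n ψ) 0 ^ 2) (g := fun ψ => n ψ ^ 2) (fun ψ _ => by
    rcases le_total (n ψ) 0 with h | h
    · simp [h, sq_nonneg]
    · simp [h]) ⟨ψ₀, h15, by simpa [h14.le, sq_pos_iff] using h14.ne⟩
  linarith

theorem e_le (hA : IsMulCommutative A) (hi : L ⊓ 𝐍(A) ≤ inert φ) (hγ : γ ∈ cs A φ)
    (hf : cfker A γ = ⊥) [DecidablePred fun α => cfker A α = ⊥] :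
    (L ⊓ 𝐂(A)).relIndex (L ⊓ 𝐍(A)) ≤ ((cs A φ).filter fun α => cfker A α = ⊥).card :=
  Nat.le_of_dvd (Finset.card_pos.2 ⟨γ, Finset.mem_filter.2 ⟨hγ, hf⟩⟩) (g2 hA hi)

theorem mu_lin_le (w : W r L A B) (hχ : Irr L χ) (hF : ∀ α ∈ cs A χ, cfker A α = ⊥)
    (hν : mu (L ⊓ 𝐂(A)) χ χ ≤ (L ⊓ 𝐂(A)).relIndex (L ⊓ 𝐍(A))) (hθ : LinChr (L ⊓ 𝐍(A)) θ) :
    mu (L ⊓ 𝐍(A)) (χ * cfStar χ) θ ≤ 1 := by
  classical
  have hCN := CN L A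
  have hA := w.dp.left_le.trans hCN.le
  have h1 := (mul_nu_le hχ.chr inf_le_left hCN.le fun θ hθ => by
    have h := (mem_cs.1 hθ).1
    obtain ⟨γ, hγ⟩ := cs_nonempty h.chr hA (deg_pos h).ne'
    exact ((e_le w.comm h.cf.le_inert hγ (hF γ (cs_trans hχ.chr inf_le_left hA hθ hγ))).trans
      (Finset.card_filter_le _ _)).trans (card_cs_le_nu_dp w.dp h.chr hCN.le)).trans hν
  have h2 := nu_pos hχ.chr (inf_le_left : L ⊓ 𝐍(A) ≤ L) (deg_pos hχ).ne'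
  have h3 := relIndex_pos' (L ⊓ 𝐂(A)) (L ⊓ 𝐍(A))
  have h4 : Irr (L ⊓ 𝐍(A)) (res (L ⊓ 𝐍(A)) χ) := (hχ.chr.res inf_le_left).irr_of_dot (by
    rw [dot_res_left, dot_res_right, dot_eq_mu hχ.chr hχ.chr inf_le_left inf_le_left,
      show mu (L ⊓ 𝐍(A)) χ χ = 1 by nlinarith, Nat.cast_one])
  rw [mu_congr (K' := L ⊓ 𝐍(A)) (φ' := res (L ⊓ 𝐍(A)) χ) (ψ' := res (L ⊓ 𝐍(A)) χ * θ) (by
    rw [dot_mul_left, cfStar_cfStar]
    exact dot_congr (fun x hx => by simp [hx]) fun x hx => by simp [hx]), mu_irr h4 (h4.mul_lin hθ)]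
  split_ifs <;> simp

theorem M (w : W r L A B) (hgen : ∀ ψ, Irr L ψ → A ≤ cfker L ψ → ψ = cf1 L) (hχ : Irr L χ)
    (hF : ∀ α ∈ cs A χ, cfker A α = ⊥)
    (hq : ∀ α ∈ cs A (χ * cfStar χ), α = cf1 A ∨ cfker A α = ⊥) {e : ℕ}
    (he : (L ⊓ 𝐂(A)).relIndex (L ⊓ 𝐍(A)) = e) (hν : mu (L ⊓ 𝐂(A)) χ χ ≤ e) (h2 : 2 ≤ e) :
    ((#|A|).totient - e) ^ 2 * e ≤ (#|A|).totient * deg χ ^ 2 := by
  classical
  rcases le_total (#|A|).totient e with h | hφ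
  · simp [h]
  have hCN := CN L A
  have hA := w.syl.le
  have hB : B ≤ L := w.dp.right_le.trans inf_le_left
  haveI := w.comm
  obtain ⟨α, hα⟩ := cs_nonempty hχ.chr hA (deg_pos hχ).ne'
  have hf := hF α hα
  have hl := (mem_cs.1 hα).1.linChr_of_comm
  have hs := (card_cs_le_nu_dp w.dp hχ.chr inf_le_left).trans hν
  have hν' : e ≤ mu (L ⊓ 𝐂(A)) χ χ := he ▸ ((e_le w.comm (inf_le_left.trans hχ.cf.le_inert) hα
    hf).trans (Finset.card_filter_le _ _)).trans (card_cs_le_nu_dp w.dp hχ.chr inf_le_left)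
  obtain ⟨S, hS⟩ : ∃ S, S = (Finset.range #|A|).filter (#|A|).Coprime := ⟨_, rfl⟩
  have hS1 : S.card = (#|A|).totient := by rw [hS]; rfl
  have h1A : 1 < #|A| := (one_lt_card_iff_ne_bot A).2 w.ne
  have hS0 : ∀ k ∈ S, k ≠ 0 := fun k hk e => by simpa [e, hS, h1A.ne'] using hk
  choose! σ hσ hσ' using fun k (hk : k ∈ S) => exists_pi_aut e k #|A| (by omega) (by omega)
    (Finset.mem_filter.1 (hS ▸ hk)).2.symm
  have hΞ := hχ.chr.mul hχ.chr.cfStar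
  obtain ⟨Ψ, hΨ⟩ : ∃ Ψ : Finset (Γ → ℂ), ∀ ψ, ψ ∈ Ψ ↔ ψ ≠ cf1 L ∧ ψ ∈ cs L (χ * cfStar χ) ∧
      mu (L ⊓ 𝐂(A)) ψ (cf1 (L ⊓ 𝐂(A))) ≠ 0 := ⟨(cs L (χ * cfStar χ)).filter fun ψ => ψ ≠ cf1 L ∧
    mu (L ⊓ 𝐂(A)) ψ (cf1 (L ⊓ 𝐂(A))) ≠ 0, fun ψ => by rw [Finset.mem_filter]; tauto⟩
  have hI : ∀ ψ ∈ Ψ, Irr L ψ := fun ψ h => (mem_cs.1 ((hΨ ψ).1 h).2.1).1
  have hsub : Ψ ⊆ (irrs L).erase (cf1 L) := fun ψ h =>
    Finset.mem_erase.2 ⟨((hΨ ψ).1 h).1, mem_irrs.2 (hI ψ h)⟩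
  have key : ∀ ψ ∈ Ψ, ∃ θ, LinChr (L ⊓ 𝐍(A)) θ ∧ mu (L ⊓ 𝐍(A)) ψ θ ≠ 0 ∧
      ∀ k ∈ S, cfAut (σ k : ℂ →+* ℂ) θ = θ := fun ψ h => by
    obtain ⟨θ, h1, h3⟩ := exists_cs_over (hI ψ h).chr inf_le_left hCN.le (chr_cf1 _) le_rfl
      ((hΨ ψ).1 h).2.2
    obtain ⟨h4, h5⟩ := mem_cs.1 h1
    have h6 := (h4.dot_cf1_ne_zero_iff hCN).1 (dot_ne_zero_of_mu h3)
    have h7 := h4.linChr_of_der1_le ((le_inf ((der1_le _).trans inf_le_left)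
      ((der1_mono inf_le_right).trans (der1_norm_le_cent w.cyc))).trans h6)
    refine ⟨θ, h7, h5, fun k hk => funext fun x => ?_⟩
    by_cases hx : x ∈ L ⊓ 𝐍(A)
    · refine hσ' k hk e _ dvd_rfl (he ▸ w.cop_e.symm) ?_
      haveI := hCN.normal_subgroupOf
      rw [← h7.map_pow hx, ← h7.mem_cfker, ← he]
      exact h6 (pow_index_mem ((L ⊓ 𝐂(A)).subgroupOf (L ⊓ 𝐍(A))) ⟨x, hx⟩)
    · simp [cfAut, h4.zero x hx]
  have ha : ∀ ψ ∈ Ψ, mu L (χ * cfStar χ) ψ = 1 := fun ψ h => by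
    obtain ⟨θ, h1, h3, -⟩ := key ψ h
    have h4 := (mul_mu_le hΞ le_rfl inf_le_left h1.1 le_rfl (hI ψ h)).trans
      (w.mu_lin_le hχ hF (he ▸ hν) h1)
    have h5 := (mem_cs.1 ((hΨ ψ).1 h).2.1).2
    exact Nat.eq_one_of_mul_eq_one_right (le_antisymm h4 (Nat.pos_of_ne_zero (mul_ne_zero h5 h3)))
  have ha1 : mu L (χ * cfStar χ) (cf1 L) = 1 := by rw [mu_mul_star hχ.chr le_rfl, mu_irr_self hχ]
  have hd : (Ψ : Set (Γ → ℂ)).PairwiseDisjoint fun ψ =>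
      S.image fun k => cfAut ((σ k).symm : ℂ →+* ℂ) ψ := fun ψ h ψ' h' hne => by
    refine Finset.disjoint_left.2 fun ξ h1 h3 => ?_
    obtain ⟨k, hk, rfl⟩ := Finset.mem_image.1 h1
    obtain ⟨j, hj, e'⟩ := Finset.mem_image.1 h3
    obtain ⟨θ, h4, h5, h6⟩ := key ψ h
    have h7 := (mul_mu_add_le hΞ le_rfl inf_le_left h4.1 le_rfl (hI ψ h) (hI ψ' h') hne).trans
      (w.mu_lin_le hχ hF (he ▸ hν) h4)
    have h8 : mu (L ⊓ 𝐍(A)) ψ' θ = mu (L ⊓ 𝐍(A)) ψ θ := by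
      rw [← h6 j hj, ← mu_symm _ (hI ψ' h').chr h4.1 inf_le_left le_rfl, e',
        mu_symm _ (hI ψ h).chr h4.1 inf_le_left le_rfl, h6 j hj, h6 k hk]
    rw [ha ψ h, ha ψ' h', h8] at h7
    omega
  have hsum : ∀ K ≤ L, mu K χ χ = 1 + ∑ ψ ∈ (irrs L).erase (cf1 L),
      mu L (χ * cfStar χ) ψ * mu K ψ (cf1 K) := fun K hK => by
    rw [← mu_mul_star hχ.chr hK, mu_sum hΞ le_rfl hK (chr_cf1 K) le_rfl,
      ← Finset.add_sum_erase _ _ (cf1_mem_irrs L), ha1, mu_cf1_left hK, mu_irr_self (irr_cf1 K)]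
  have hU : e ≤ 1 + ∑ ψ ∈ Ψ, mu (L ⊓ 𝐂(A)) ψ (cf1 (L ⊓ 𝐂(A))) := by
    rw [hsum _ inf_le_left, ← Finset.sum_subset hsub fun ψ h1 h3 => by
      by_contra h4
      exact h3 ((hΨ ψ).2 ⟨(Finset.mem_erase.1 h1).1, mem_cs.2 ⟨mem_irrs.1 (Finset.mem_of_mem_erase h1),
        left_ne_zero_of_mul h4⟩, right_ne_zero_of_mul h4⟩),
      Finset.sum_congr rfl fun ψ h => by rw [ha ψ h, one_mul]] at hν'
    exact hν'
  have hV : 1 + ∑ ψ ∈ Ψ, mu B ψ (cf1 B) ≤ e * e := by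
    refine le_trans ?_ ((nu_right_le w.dp w.comm hχ.chr inf_le_left).trans (Nat.mul_le_mul hs hν))
    rw [hsum B hB]
    exact Nat.add_le_add_left ((Finset.sum_congr rfl fun ψ h => by rw [ha ψ h, one_mul]).le.trans
      (Finset.sum_le_sum_of_subset hsub)) _
  have hW : ∑ ψ ∈ Ψ, ∑ γ ∈ (irrs A).erase (cf1 A), mu A ψ γ + mu A χ χ ≤ deg χ ^ 2 := by
    rw [show deg χ ^ 2 = deg (χ * cfStar χ) from (deg_of_eq (by simp [cfStar, deg_eq hχ.chr, sq])).symm,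
      ← sum_mu_comm hΞ hA w.comm, ← Finset.sum_erase_add _ _ (cf1_mem_irrs A), mu_mul_star hχ.chr hA,
      Finset.sum_comm]
    refine Nat.add_le_add_right (Finset.sum_le_sum fun γ hγ => ?_) _
    rw [mu_sum hΞ le_rfl hA (mem_irrs.1 (Finset.mem_of_mem_erase hγ)).chr le_rfl]
    exact (Finset.sum_congr rfl fun ψ h => by rw [ha ψ h, one_mul]).le.trans
      (Finset.sum_le_sum_of_subset (hsub.trans (Finset.erase_subset _ _)))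
  have hm : deg χ ^ 2 ≤ e * mu A χ χ := by
    rw [← sum_mu_comm hχ.chr hA w.comm, nu_sum hχ.chr hA, ← Finset.sum_subset (cs_subset (φ := χ))
      fun γ h1 h3 => not_not.1 fun e => h3 (mem_cs.2 ⟨mem_irrs.1 h1, e⟩)]
    exact sq_sum_le_card_mul_sum_sq.trans (Nat.mul_le_mul hs (Finset.sum_le_sum_of_subset cs_subset))
  obtain ⟨P, hP⟩ : ∃ P : ℤ, P = e * ((#|A|).totient - e) := ⟨_, rfl⟩
  obtain ⟨Q, hQ⟩ : ∃ Q : ℤ, Q = (#|A|).totient * deg χ ^ 2 := ⟨_, rfl⟩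
  have hφ' : (0 : ℤ) ≤ (#|A|).totient - e := by omega
  have hP0 : 0 ≤ P := by rw [hP]; positivity
  have hQ0 : 0 < Q := by
    have := deg_pos hχ
    have : 0 < (#|A|).totient := by omega
    rw [hQ]; positivity
  have main : ∑ ψ ∈ Ψ, (2 * Q * P * (((#|A|).totient + 1) * mu (L ⊓ 𝐂(A)) ψ (cf1 (L ⊓ 𝐂(A))) -
      mu B ψ (cf1 B)) - P ^ 2 * (#|A|).totient * (∑ γ ∈ (irrs A).erase (cf1 A), mu A ψ γ : ℕ)) ≤
      Q ^ 2 * (e - 1) := by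
    have h1 := w.test hl hf
    rw [he, ← le_sub_iff_add_le] at h1
    refine le_trans ?_ (mul_le_mul_of_nonneg_left h1 (sq_nonneg Q))
    rw [Finset.mul_sum]
    refine le_trans ?_ (Finset.sum_le_sum_of_subset_of_nonneg (s := Ψ.biUnion fun ψ =>
      S.image fun k => cfAut ((σ k).symm : ℂ →+* ℂ) ψ) (Finset.biUnion_subset.2 fun ψ h =>
        Finset.image_subset_iff.2 fun k _ => Finset.mem_erase.2 ⟨fun e' => ((hΨ ψ).1 h).1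
          (cfAut_injective _ (e'.trans (cfAut_cf1 _ L).symm)), mem_irrs.2 ((hI ψ h).cfAut _)⟩)
      fun _ _ _ => by positivity)
    rw [Finset.sum_biUnion hd]
    refine Finset.sum_le_sum fun ψ h => ?_
    have h3 := hI ψ h
    obtain ⟨γ, hγ, hγ1⟩ : ∃ γ ∈ cs A ψ, γ ≠ cf1 A := by
      by_contra! h4
      exact ((hΨ ψ).1 h).1 (hgen ψ h3 (le_ker_of_cs h3.chr hA le_rfl fun γ hγ => by
        rw [h4 γ hγ, cfker_cf1]))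
    refine le_trans ?_ (orbit_le w.cyc w.ne hA h3 hγ ((hq γ (cs_trans hΞ le_rfl hA
      ((hΨ ψ).1 h).2.1 hγ)).resolve_left hγ1) σ hS.le hσ (fun ψ => (mu (L ⊓ 𝐂(A)) ψ
        (cf1 (L ⊓ 𝐂(A))) : ℤ) - mu (L ⊓ 𝐂(A)) ψ (cfDp w.dp α (cf1 B))) hP0 hQ0.le)
    rw [Finset.sum_congr (s₁ := S) rfl (g := fun k => 2 * Q * P * ((mu (L ⊓ 𝐂(A)) ψ (cf1 (L ⊓ 𝐂(A))) : ℤ) -
        mu (L ⊓ 𝐂(A)) ψ (cfDp w.dp (α ^ k) (cf1 B))) -
        P ^ 2 * (∑ γ ∈ (irrs A).erase (cf1 A), mu A ψ γ : ℕ)) fun k hk => by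
      rw [mu_symm _ h3.chr (chr_cf1 _) inf_le_left le_rfl, mu_symm _ h3.chr (chr_cfDp _ hl.1
        (chr_cf1 B)) inf_le_left le_rfl, cfAut_cf1, ← cfDp_cfAut, cfAut_cf1,
        lin_pow_A hl (hS0 k hk) (hσ k hk)]]
    have h4 := sum_pow_le w.cyc w.ne hl hf (fun γ => mu (L ⊓ 𝐂(A)) ψ (cfDp w.dp γ (cf1 B))) hS.le
    have h5 := mu_right_eq w.dp w.comm h3.chr inf_le_left (irr_cf1 B)
    rw [← Finset.add_sum_erase _ _ (cf1_mem_irrs A), cfDp_cf1] at h5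
    have h6 : (mu (L ⊓ 𝐂(A)) ψ (cf1 (L ⊓ 𝐂(A))) : ℤ) +
        ∑ k ∈ S, (mu (L ⊓ 𝐂(A)) ψ (cfDp w.dp (α ^ k) (cf1 B)) : ℤ) ≤ mu B ψ (cf1 B) := by
      exact_mod_cast h5 ▸ Nat.add_le_add_left h4 _
    rw [Finset.sum_sub_distrib, ← Finset.mul_sum, Finset.sum_sub_distrib, Finset.sum_const,
      Finset.sum_const, hS1, nsmul_eq_mul, nsmul_eq_mul]
    have := mul_le_mul_of_nonneg_left h6 (show 0 ≤ 2 * Q * P by positivity)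
    linarith
  rw [Finset.sum_sub_distrib, ← Finset.mul_sum, ← Finset.mul_sum, Finset.sum_sub_distrib,
    ← Finset.mul_sum, ← Nat.cast_sum, ← Nat.cast_sum, ← Nat.cast_sum] at main
  generalize ∑ ψ ∈ Ψ, mu (L ⊓ 𝐂(A)) ψ (cf1 (L ⊓ 𝐂(A))) = U at *
  generalize ∑ ψ ∈ Ψ, mu B ψ (cf1 B) = V at *
  generalize ∑ ψ ∈ Ψ, ∑ γ ∈ (irrs A).erase (cf1 A), mu A ψ γ = T at *
  generalize (#|A|).totient = φ at *
  zify [hφ] at hU hV hW hm h2 ⊢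
  have e1 : (e - 1) * ((φ : ℤ) - e) ≤ (φ + 1) * U - V := by nlinarith
  have e2 : (e : ℤ) * T ≤ (e - 1) * deg χ ^ 2 := by nlinarith
  have e3 := mul_le_mul_of_nonneg_left e1 (show 0 ≤ 2 * Q * P * e by positivity)
  have e4 := mul_le_mul_of_nonneg_left e2 (show 0 ≤ P ^ 2 * φ by positivity)
  have e5 := mul_le_mul_of_nonneg_left main (show (0 : ℤ) ≤ e by positivity)
  have e6 : ((e - 1) * Q * e) * ((φ - e) ^ 2 * e) ≤ ((e - 1) * Q * e) * Q := by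
    have : P ^ 2 * φ * ((e - 1) * deg χ ^ 2) = (e - 1) * P ^ 2 * Q := by rw [hQ]; ring
    have : 2 * Q * P * e * ((e - 1) * (φ - e)) = 2 * ((e - 1) * P ^ 2 * Q) := by rw [hP]; ring
    have : ((e - 1) * Q * e) * ((φ - e) ^ 2 * e) = (e - 1) * P ^ 2 * Q := by rw [hP]; ring
    linarith
  rw [← hQ]
  exact le_of_mul_le_mul_left e6 (mul_pos (mul_pos (by omega) hQ0) (by omega))

end W

end Cfsg.Agent.Tr
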