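import Cfsg.Agent.Tr.Ga

/-! Existence of (large) primitive prime divisors. -/

set_option autoImplicit false

namespace Cfsg.Agent.Tr

open Polynomial

/-- the value of the cyclotomic polynomial at `a` -/
noncomputable def cyc (a N : ℕ) : ℕ := ((cyclotomic N ℤ).eval (a : ℤ)).natAbs

variable {a N l : ℕ}

theorem natAbs_pow_sub (ha : 0 < a) (k : ℕ) : ((a : ℤ) ^ k - 1).natAbs = a ^ k - 1 := by
  rw [show (a : ℤ) ^ k - 1 = ((a ^ k - 1 : ℕ) : ℤ) by rw [Nat.cast_sub (pow_pos ha k)]; simp,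
    Int.natAbs_natCast]

theorem cyc_root {j m : ℕ} (hl : l.Prime) (h : l ∣ cyc a N) (e : N = l ^ j * m)
    (hm : ¬ l ∣ m) : IsPrimitiveRoot (a : ZMod l) m := by
  haveI : Fact l.Prime := ⟨hl⟩
  haveI : NeZero (m : ZMod l) := ⟨fun h0 => hm ((ZMod.natCast_eq_zero_iff m l).1 h0)⟩
  rw [← isRoot_cyclotomic_prime_pow_mul_iff_of_charP (p := l) (k := j), ← e]
  have h2 := (ZMod.intCast_zmod_eq_zero_iff_dvd _ l).2 (Int.natCast_dvd.2 h)
  rw [IsRoot.def, ← map_cyclotomic_int]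
  have h3 := eval_intCast_map (Int.castRingHom (ZMod l)) (cyclotomic N ℤ) a
  simp only [eq_intCast, Int.cast_natCast] at h3
  exact h3.trans h2

theorem cyc_dvd (ha : 0 < a) {d : ℕ} (h : d ∈ N.properDivisors) :
    (a ^ d - 1) * cyc a N ∣ a ^ N - 1 := by
  have h1 := eval_dvd (x := (a : ℤ)) (X_pow_sub_one_mul_cyclotomic_dvd_X_pow_sub_one_of_dvd ℤ h)
  simp only [eval_mul, eval_sub, eval_pow, eval_X, eval_one] at h1
  have h2 := Int.natAbs_dvd_natAbs.2 h1
  rwa [Int.natAbs_mul, natAbs_pow_sub ha, natAbs_pow_sub ha] at h2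

theorem cyc_dvd' (ha : 0 < a) (N : ℕ) : cyc a N ∣ a ^ N - 1 := by
  have h1 := eval_dvd (x := (a : ℤ)) (cyclotomic.dvd_X_pow_sub_one N ℤ)
  simp only [eval_sub, eval_pow, eval_X, eval_one] at h1
  rw [← natAbs_pow_sub ha]
  exact Int.natAbs_dvd_natAbs.2 h1

theorem dvd_cyc_mul (ha : 0 < a) (hN : 0 < N) :
    a ^ N - 1 ∣ cyc a N * ∏ d ∈ N.properDivisors, (a ^ d - 1) := by
  have h1 := congrArg (fun f => (eval (a : ℤ) f).natAbs) (prod_cyclotomic_eq_X_pow_sub_one hN ℤ)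
  simp only [eval_sub, eval_pow, eval_X, eval_one, natAbs_pow_sub ha] at h1
  rw [← h1, ← Nat.cons_self_properDivisors hN.ne', Finset.prod_cons, eval_mul, Int.natAbs_mul,
    eval_prod, ← Int.natAbsHom_apply (∏ _ ∈ _, _), map_prod]
  exact Nat.mul_dvd_mul_left _ (Finset.prod_dvd_prod_of_dvd _ _ fun d _ => cyc_dvd' ha d)

theorem dvd_of_root (ha : 0 < a) {m k : ℕ} (h : IsPrimitiveRoot (a : ZMod l) m) :
    l ∣ a ^ k - 1 ↔ m ∣ k := by
  rw [← h.pow_eq_one_iff_dvd, ← ZMod.natCast_eq_zero_iff, Nat.cast_sub (pow_pos ha k), sub_eq_zero]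
  simp

theorem not_dvd_of_cyc (ha : 0 < a) (hN : 0 < N) (hl : l.Prime) (h : l ∣ cyc a N) : ¬ l ∣ a :=
  fun e => hl.not_dvd_one ((Nat.dvd_sub_iff_right (pow_pos ha N) (dvd_pow e hN.ne')).1
    (h.trans (cyc_dvd' ha N)))

theorem root_dvd (hl : l.Prime) (h : ¬ l ∣ a) {m : ℕ} (hr : IsPrimitiveRoot (a : ZMod l) m) :
    m ∣ l - 1 :=
  haveI := Fact.mk hl
  hr.dvd_of_pow_eq_one _ (ZMod.pow_card_sub_one_eq_one (mt (ZMod.natCast_eq_zero_iff a l).1 h))

theorem ppd_of_cyc (ha : 0 < a) (hN : 0 < N) (hl : l.Prime) (h : l ∣ cyc a N) (h1 : ¬ l ∣ N) :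
    Ppd a N l ∧ N ∣ l - 1 :=
  have h2 := cyc_root (j := 0) hl h (by simp) h1
  ⟨⟨hl, h.trans (cyc_dvd' ha N), fun _ h3 h4 h5 =>
    h4.not_ge (Nat.le_of_dvd h3 ((dvd_of_root ha h2).1 h5))⟩,
    root_dvd hl (not_dvd_of_cyc ha hN hl h) h2⟩

theorem not_sq_dvd (ha : 1 < a) (hN : 0 < N) (h2 : l = 2 → 2 < N) (hl : l.Prime) (h1 : l ∣ N) :
    ¬ l * l ∣ cyc a N := fun h => by
  have h3 := (dvd_mul_right l l).trans h
  have ha0 := ha.le
  obtain ⟨j, m, hm, e⟩ := Nat.exists_eq_pow_mul_and_not_dvd hN.ne' l hl.ne_one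
  have hr := cyc_root hl h3 e hm
  have hla := not_dvd_of_cyc ha0 hN hl h3
  obtain ⟨j, rfl⟩ : ∃ i, j = i + 1 := Nat.exists_eq_add_one.2 (Nat.pos_of_ne_zero fun h0 =>
    hm (by simpa [e, h0] using h1))
  have hd0 : 0 < l ^ j * m := Nat.pos_of_ne_zero fun h0 => hN.ne' (by
    rw [e, pow_succ', mul_assoc, h0, mul_zero])
  have e2 : N = l ^ j * m * l := by rw [e]; ring
  have h4 := cyc_dvd ha0 (N := N) (d := l ^ j * m) (Nat.mem_properDivisors.2
    ⟨e2 ▸ dvd_mul_right _ _, by rw [e2]; exact lt_mul_of_one_lt_right hd0 hl.one_lt⟩)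
  have h5 : 1 < a ^ (l ^ j * m) := Nat.one_lt_pow hd0.ne' ha
  haveI := Fact.mk hl
  rcases hl.eq_two_or_odd' with rfl | hlo
  · obtain rfl : m = 1 := Nat.dvd_one.1 (root_dvd hl hla hr)
    obtain ⟨i, rfl⟩ : ∃ i, j = i + 1 := Nat.exists_eq_add_one.2 (Nat.pos_of_ne_zero fun h0 => by
      have := h2 rfl
      simp [e, h0] at this)
    have e3 : ∀ x : ℕ, x ^ 2 - 1 = (x - 1) * (x + 1) := fun x => by
      rw [mul_comm, ← Nat.sq_sub_sq, one_pow]
    rw [e2, pow_mul _ _ 2, e3] at h4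
    have h6 := h.trans (e2 ▸ Nat.dvd_of_mul_dvd_mul_left (by omega) h4)
    rw [mul_one, pow_succ, pow_mul] at h6
    obtain ⟨c, hc⟩ := (Nat.odd_iff.2 (Nat.two_dvd_ne_zero.1 hla)).pow (n := 2 ^ i)
    rw [hc, show (2 * c + 1) ^ 2 + 1 = 4 * (c * c + c) + 2 by ring] at h6
    omega
  · have h6 := padicValNat.pow_sub_pow (p := l) hlo h5 ((dvd_of_root ha0 hr).2 (dvd_mul_left _ _))
      (fun h5 => hla (hl.dvd_of_dvd_pow h5)) hl.ne_zero
    rw [one_pow, ← pow_mul, ← e2, padicValNat_self] at h6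
    have := (padicValNat_dvd_iff_le (p := l) (n := padicValNat l (a ^ (l ^ j * m) - 1) + 2)
      (Nat.sub_pos_of_lt (Nat.one_lt_pow hN.ne' ha)).ne').1 (by
        rw [pow_add, sq]
        exact (Nat.mul_dvd_mul pow_padicValNat_dvd h).trans h4)
    omega

theorem cyc_le (ha : 1 < a) (N : ℕ) : cyc a N ≤ (a + 1) ^ N.totient := by
  have h1 := cyclotomic_eval_le_add_one_pow_totient (q := a) (by exact_mod_cast ha) N
  have h2 := cyclotomic.eval_apply (a : ℤ) N (Int.castRingHom ℝ)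
  simp only [eq_intCast, Int.cast_natCast] at h2
  rw [h2] at h1
  have h3 := Int.natAbs_of_nonneg (cyclotomic_nonneg N (x := (a : ℤ)) (by exact_mod_cast ha.le))
  rw [← h3] at h1
  exact_mod_cast h1

theorem cyc_pow {m : ℕ} (hl : l.Prime) (h : l ∣ m) : cyc (a ^ l) m = cyc a (m * l) := by
  rw [cyc, cyc, ← cyclotomic_expand_eq_cyclotomic hl h ℤ, expand_eval, Nat.cast_pow]

theorem cyc_pow' {m : ℕ} (hl : l.Prime) (h : ¬ l ∣ m) :
    cyc (a ^ l) m = cyc a (m * l) * cyc a m := by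
  rw [cyc, cyc, cyc, ← Int.natAbs_mul, ← eval_mul, ← cyclotomic_expand_eq_cyclotomic_mul hl h ℤ,
    expand_eval, Nat.cast_pow]

theorem zsig_two (hN : 1 < N) (h6 : N ≠ 6) : ∃ r, Ppd 2 N r := by
  by_contra! h
  have h0 : (2 - 1) ^ N.totient < cyc 2 N :=
    sub_one_pow_totient_lt_natAbs_cyclotomic_eval (q := 2) hN (by decide)
  have hne : ∀ l : ℕ, l.Prime → l ∣ cyc 2 N → l ≠ 2 := fun l hl h1 e =>
    not_dvd_of_cyc two_pos (by omega) hl h1 (e ▸ dvd_rfl)
  have key : ∀ l : ℕ, l.Prime → l ∣ cyc 2 N → ∃ j m, N = l ^ (j + 1) * m ∧ m ∣ l - 1 ∧ ¬ l ∣ m ∧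
      m ≠ 1 := fun l hl h1 => by
    obtain ⟨j, m, hm, e⟩ := Nat.exists_eq_pow_mul_and_not_dvd (by omega : N ≠ 0) l hl.ne_one
    have h3 := cyc_root hl h1 e hm
    cases j with
    | zero => exact absurd (ppd_of_cyc two_pos (by omega) hl h1 (by simpa [e] using hm)).1 (h l)
    | succ j =>
      exact ⟨j, m, e, root_dvd hl (not_dvd_of_cyc two_pos (by omega) hl h1) h3, hm, fun e' =>
        hl.not_dvd_one ((dvd_of_root two_pos h3 (k := 1)).2 (e' ▸ dvd_rfl))⟩
  obtain ⟨l, hl, h1⟩ := Nat.exists_prime_and_dvd (n := cyc 2 N) (by simpa using h0.ne')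
  obtain ⟨j, m, e, hm, hm1, hm2⟩ := key l hl h1
  have h2 := hl.two_le
  have hm3 := Nat.le_of_dvd (by omega) hm
  have hm0 : 0 < m := Nat.pos_of_ne_zero fun h0 => hm1 (h0 ▸ dvd_zero _)
  obtain ⟨c, hc⟩ := h1
  obtain rfl : c = 1 := by
    by_contra h3
    obtain ⟨l', hl', h4⟩ := Nat.exists_prime_and_dvd h3
    obtain ⟨j', m', e', hm', hm1', -⟩ := key l' hl' (hc ▸ h4.mul_left l)
    have hne' : l' ≠ l := fun e'' => not_sq_dvd one_lt_two (by omega)
      (fun e => absurd e (hne l hl ⟨c, hc⟩)) hl (e ▸ (dvd_pow_self l j.succ_ne_zero).mul_right m)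
      (hc ▸ Nat.mul_dvd_mul_left l (e'' ▸ h4))
    have := Nat.le_of_dvd hm0 (((Nat.coprime_primes hl' hl).2 hne').pow_right (j + 1)
      |>.dvd_of_dvd_mul_left (e ▸ e' ▸ (dvd_pow_self l' j'.succ_ne_zero).mul_right m'))
    have := Nat.le_of_dvd (Nat.pos_of_ne_zero fun h0 => hm1' (by simp [h0]))
      (((Nat.coprime_primes hl hl').2 hne'.symm).pow_right (j' + 1)
      |>.dvd_of_dvd_mul_left (e' ▸ e ▸ (dvd_pow_self l j.succ_ne_zero).mul_right m))
    have := Nat.le_of_dvd (by have := hl'.two_le; omega) hm'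
    omega
  have h3 : l < 2 ^ l := Nat.lt_two_pow_self
  cases j with
  | succ j =>
    have h4 : 2 ^ l - 1 < cyc (2 ^ l) (l ^ (j + 1) * m) := sub_one_lt_natAbs_cyclotomic_eval
      (one_lt_mul_of_lt_of_le (Nat.one_lt_pow j.succ_ne_zero hl.one_lt) hm0) (by omega)
    have h5 := cyc_pow (a := 2) (m := l ^ (j + 1) * m) hl
      ((dvd_pow_self l j.succ_ne_zero).mul_right m)
    rw [show l ^ (j + 1) * m * l = N by rw [e]; ring] at h5
    omega
  | zero =>
    have h4 : (2 ^ l - 1) ^ m.totient < cyc (2 ^ l) m :=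
      sub_one_pow_totient_lt_natAbs_cyclotomic_eval (by omega) (by omega)
    have h5 := cyc_pow' (a := 2) hl hm1
    rw [show m * l = N by rw [e]; ring] at h5
    have h7 := h4.trans_le (h5.le.trans (Nat.mul_le_mul hc.le (cyc_le one_lt_two m)))
    by_cases h8 : l = 3
    · subst h8
      obtain rfl : m = 2 := by omega
      exact h6 e
    have h9 : 3 * l < 2 ^ l := by
      have : 4 ≤ l := by have := hne l hl ⟨1, hc⟩; omega
      clear * - this
      induction l, this using Nat.le_induction with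
      | base => norm_num
      | succ m h ih => rw [pow_succ]; omega
    have h10 := Nat.pow_le_pow_left (show l * 3 ≤ 2 ^ l - 1 by omega) m.totient
    rw [mul_pow] at h10
    have h11 := Nat.mul_le_mul_right (3 ^ m.totient) (Nat.le_self_pow (Nat.totient_pos.2 hm0).ne' l)
    rw [mul_one] at h7
    exact (h11.trans h10).not_gt h7

theorem sq_le_totient (n : ℕ) :
    8 * n ^ 2 ≤ (if 2 ∣ n then 4 else 1) * (if 3 ∣ n then 9 else 8) * n.totient ^ 3 := by
  induction n using Nat.recOnPosPrimePosCoprime with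
  | zero => simp
  | one => simp
  | prime_pow l k hl hk =>
    obtain ⟨j, rfl⟩ := Nat.exists_eq_add_one.2 hk
    have h1 : 8 * l ^ 2 ≤ (if 2 ∣ l then 4 else 1) * (if 3 ∣ l then 9 else 8) * (l - 1) ^ 3 := by
      by_cases h : l < 4
      · have := hl.two_le
        interval_cases l <;> norm_num
      obtain ⟨d, rfl⟩ : ∃ d, l = d + 4 := ⟨l - 4, by omega⟩
      have : (d + 4) ^ 2 ≤ (d + 3) ^ 3 := by ring_nf; omega
      rw [show d + 4 - 1 = d + 3 from rfl]
      split_ifs <;> omega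
    have h2 := Nat.pow_le_pow_right (pow_pos hl.pos j) (show 2 ≤ 3 by decide)
    simp only [Nat.totient_prime_pow_succ hl, Nat.prime_two.prime.dvd_pow_iff_dvd j.succ_ne_zero,
      Nat.prime_three.prime.dvd_pow_iff_dvd j.succ_ne_zero]
    calc _ = (l ^ j) ^ 2 * (8 * l ^ 2) := by ring
      _ ≤ _ := (Nat.mul_le_mul h2 h1).trans_eq (by ring)
  | coprime a b _ _ h ha hb =>
    have h1 := Nat.mul_le_mul ha hb
    have h2 : ∀ l : ℕ, l.Prime → l ∣ a → ¬ l ∣ b := fun l hl h2 h3 =>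
      hl.ne_one (Nat.eq_one_of_dvd_coprimes h h2 h3)
    have h3 := h2 2 Nat.prime_two
    have h4 := h2 3 Nat.prime_three
    simp only [Nat.totient_mul h, Nat.prime_two.dvd_mul, Nat.prime_three.dvd_mul]
    refine Nat.le_of_mul_le_mul_left (c := 8) ((le_of_eq (by ring)).trans (h1.trans (le_of_eq ?_)))
      (by decide)
    by_cases a2 : 2 ∣ a <;> by_cases b2 : 2 ∣ b <;> by_cases a3 : 3 ∣ a <;> by_cases b3 : 3 ∣ b <;>
      first
      | exact absurd b2 (h3 a2)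
      | exact absurd b3 (h4 a3)
      | simp only [a2, b2, a3, b3, if_true, if_false, or_true, true_or, or_false]; ring

theorem chk1 : ∀ n < 282, 3 ≤ n → n * (n + 1) * (2 * n + 1) ≤ 24 ^ n.totient := by decide +kernel

set_option synthInstance.maxSize 2000 in
theorem chk2 : ∀ n < 282, 3 ≤ n → ∀ p < 25, 3 ≤ p ∧ p % 2 = 1 ∧
    p ^ n - 1 ∣ n * (n + 1) * (2 * n + 1) * ∏ d ∈ n.properDivisors, (p ^ d - 1) →
    p = 3 ∧ (n = 4 ∨ n = 6 ∨ n = 18) ∨ n = 6 ∧ (p = 5 ∨ p = 17) := by decide +kernel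

theorem zsig_big (ha : 3 ≤ a) (ho : a % 2 = 1) (hN : 3 ≤ N) :
    (∃ r, Ppd a N r ∧ (r * r ∣ a ^ N - 1 ∨ 3 * N < r)) ∨
    a = 3 ∧ (N = 4 ∨ N = 6 ∨ N = 18) ∨ N = 6 ∧ (a = 5 ∨ a = 17) := by
  refine or_iff_not_imp_left.2 fun h => ?_
  push Not at h
  have ha0 : 0 < a := by omega
  have h0 : (a - 1) ^ N.totient < cyc a N :=
    sub_one_pow_totient_lt_natAbs_cyclotomic_eval (by omega) (by omega)
  have h1 : Squarefree (cyc a N) := Nat.squarefree_iff_prime_squarefree.2 fun l hl h1 => by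
    by_cases h2 : l ∣ N
    · exact not_sq_dvd (by omega) (by omega) (fun _ => hN) hl h2 h1
    · exact (h l (ppd_of_cyc ha0 (by omega) hl ((dvd_mul_right l l).trans h1) h2).1).1
        (h1.trans (cyc_dvd' ha0 N))
  have h2 : cyc a N ∣ N * (N + 1) * (2 * N + 1) := by
    rw [← Nat.prod_primeFactors_of_squarefree h1]
    refine Finset.prod_primes_dvd _ (fun l hl => (Nat.prime_of_mem_primeFactors hl).prime)
      fun l hl => ?_
    have h2 := Nat.prime_of_mem_primeFactors hl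
    by_cases h3 : l ∣ N
    · exact (h3.mul_right _).mul_right _
    obtain ⟨h4, c, hc⟩ := ppd_of_cyc ha0 (by omega) h2 (Nat.dvd_of_mem_primeFactors hl) h3
    have h5 := (h l h4).2
    have h6 := h2.two_le
    have : c < 3 := Nat.lt_of_mul_lt_mul_left (a := N) (by omega)
    interval_cases c
    · omega
    · rw [show l = N + 1 by omega]; exact (dvd_mul_left _ _).mul_right _
    · rw [show l = 2 * N + 1 by omega]; exact dvd_mul_left _ _
  have h3 := h0.trans_le (Nat.le_of_dvd (by positivity) h2)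
  have h4 : N < 282 := by
    by_contra! h4
    have h5 : 2 * N ^ 2 ≤ 9 * N.totient ^ 3 := by
      have := sq_le_totient N
      split_ifs at this <;> omega
    have h6 := (Nat.pow_le_pow_left (show 2 ≤ a - 1 by omega) _).trans_lt h3
    generalize N.totient = f at *
    have h7 : 27 ≤ f := by
      by_contra! h7
      have := Nat.pow_le_pow_left (Nat.le_of_lt_succ h7) 3
      have := Nat.pow_le_pow_left h4 2
      omega
    have h8 : 821 * f ^ 9 ≤ (2 ^ f) ^ 2 := by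
      clear * - h7
      induction f, h7 using Nat.le_induction with
      | base => norm_num
      | succ m h ih =>
        have := Nat.pow_le_pow_left (show 27 * (m + 1) ≤ 28 * m by omega) 9
        rw [mul_pow, mul_pow] at this
        rw [pow_succ 2, mul_pow]
        omega
    have h9 := Nat.pow_lt_pow_left (h6.trans_le (show _ ≤ 3 * N ^ 3 by nlinarith)) two_ne_zero
    have h10 := Nat.pow_le_pow_left h5 3
    rw [show (2 * N ^ 2) ^ 3 = 8 * N ^ 6 by ring, show (9 * f ^ 3) ^ 3 = 729 * f ^ 9 by ring] at h10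
    rw [show (3 * N ^ 3) ^ 2 = 9 * N ^ 6 by ring] at h9
    omega
  have h5 := lt_of_pow_lt_pow_left₀ _ (by decide) (h3.trans_le (chk1 N h4 hN))
  exact chk2 N h4 hN a (by omega)
    ⟨ha, ho, (dvd_cyc_mul ha0 (by omega)).trans (Nat.mul_dvd_mul_right h2 _)⟩

end Cfsg.Agent.Tr
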