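import Cfsg.Agent.Tr.U
import Cfsg.Agent.FT.BG1.C
import Cfsg.Agent.FT.Frob

/-! A `p'`-group acting transitively on the nonzero vectors, with the lifted character. -/

set_option autoImplicit false

namespace Cfsg.Agent.Tr

open Subgroup Cfsg.Agent.H1 Cfsg.Agent.L Cfsg.Agent.H3 Cfsg.Agent.FT
open scoped Pointwise ComplexConjugate commutatorElement

variable {Γ : Type*} [Group Γ] [Finite Γ] {p n r : ℕ} {V G H K T U E : Subgroup Γ}
  {β α γ θ : Γ → ℂ} {x y v : Γ}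

theorem card_dvd_gl (hp : p.Prime) (hU : IsElementaryAbelian p U) {d : ℕ} (hd : #|U| = p ^ d)
    (h : E ≤ 𝐍(U)) (hf : E ⊓ 𝐂(U) = ⊥) : #|E| ∣ ∏ i ∈ Finset.range d, (p ^ d - p ^ i) := by
  haveI := Fact.mk hp
  obtain ⟨ρ, hρ⟩ := B1.exists_rep_GL hU hd h
  have := card_dvd_of_injective ρ ((MonoidHom.ker_eq_bot_iff ρ).1 (by
    rw [hρ, subgroupOf_eq_bot, disjoint_iff, inf_comm, hf]))
  rwa [Matrix.card_GL_field, ZMod.card, Fin.prod_univ_eq_prod_range fun i => p ^ d - p ^ i] at this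

theorem res_mem_cs (hβ : Chr G β) (hK : K ≤ G) (hT : T ≤ K) (hγ : γ ∈ cs K β) (hl : LinChr K γ) :
    res T γ ∈ cs T β := by
  have h := hl.res hT
  refine cs_trans hβ hK hT hγ (mem_cs.2 ⟨h.irr, ?_⟩)
  rw [mu_congr (dot_res_left T γ _).symm, mu_irr_self h.irr]
  exact one_ne_zero

/-- the standing hypothesis -/
structure St (p n : ℕ) (V G : Subgroup Γ) (β : Γ → ℂ) : Prop where
  pr : p.Prime
  pos : 0 < n
  el : IsElementaryAbelian p V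
  norm : G ≤ 𝐍(V)
  card : #|V| = p ^ n
  cop : ¬ p ∣ #|G|
  faith : G ⊓ 𝐂(V) = ⊥
  tr : ∀ v ∈ V, ∀ w ∈ V, v ≠ 1 → w ≠ 1 → ∃ g ∈ G, g * v * g⁻¹ = w
  chr : Chr G β
  dg : deg β = n
  ker : cfker G β = ⊥
  pw : ∀ g ∈ G, β (g ^ p) = β g
  fix : ∀ g ∈ G, V ⊓ 𝐂[g] = ⊥ → cf1 (zpowers g) ∉ cs (zpowers g) β

namespace St

theorem gal (s : St p n V G β) (j : ℕ) : ∃ u : ℂ →+* ℂ, cfAut u β = β ∧
    ∀ K ≤ G, ∀ γ, LinChr K γ → cfAut u γ = γ ^ p ^ j := by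
  obtain ⟨u, hu, -⟩ := exists_pi_aut 1 (p ^ j) #|G| one_ne_zero Nat.card_pos.ne'
    (((Nat.Prime.coprime_iff_not_dvd s.pr).2 s.cop).pow_left j)
  have h1 : ∀ x ∈ G, x ^ #|G| = 1 := fun x hx =>
    orderOf_dvd_iff_pow_eq_one.1 (G.orderOf_dvd_natCard hx)
  refine ⟨u, funext fun x => ?_, fun K hK γ hγ => cfAut_lin hγ (pow_pos s.pr.pos j).ne'
    (fun x hx => lin_pow_card hγ hx (h1 x (hK hx))) hu⟩
  by_cases hx : x ∈ G
  · refine (s.chr.vchr.aut_apply_pow _ hu hx (h1 x hx)).trans ?_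
    clear hu
    induction j with
    | zero => simp
    | succ j ih => rw [pow_succ, pow_mul, s.pw _ (G.pow_mem hx _), ih]
  · simp [cfAut, s.chr.zero x hx]

theorem lin (s : St p n V G β) (hγ : LinChr K γ) (j : ℕ) : LinChr K (γ ^ p ^ j) :=
  lin_pow hγ (pow_pos s.pr.pos j).ne'

theorem mu_pow (s : St p n V G β) (hK : K ≤ G) (hγ : LinChr K γ) (j : ℕ) :
    mu K β (γ ^ p ^ j) = mu K β γ := by
  obtain ⟨u, h1, h2⟩ := s.gal j
  rw [← h2 K hK γ hγ, ← mu_cfAut s.chr hγ.1 hK le_rfl u, h1]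

theorem pow_inj (s : St p n V G β) (hK : K ≤ G) (hγ : LinChr K γ) (hα : LinChr K α) {j : ℕ}
    (h : γ ^ p ^ j = α ^ p ^ j) : γ = α := by
  obtain ⟨u, -, h2⟩ := s.gal j
  exact cfAut_injective u (by rw [h2 K hK γ hγ, h2 K hK α hα, h])

theorem pow_injOn (s : St p n V G β) (hK : K ≤ G) (hγ : LinChr K γ) {d : ℕ}
    (hd : ∀ k, 0 < k → k < d → γ ^ p ^ k ≠ γ) :
    Set.InjOn (fun j => γ ^ p ^ j) (Finset.range d) := by
  have : ∀ i j, i < j → j < d → γ ^ p ^ i ≠ γ ^ p ^ j := fun i j h1 h2 e =>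
    hd (j - i) (by omega) (by omega) (s.pow_inj hK (s.lin hγ _) hγ (j := i) (by
      rw [← pow_mul, ← pow_add, Nat.sub_add_cancel h1.le, e]))
  intro i hi j hj e
  rcases lt_trichotomy i j with h | h | h
  exacts [absurd e (this i j h (by simpa using hj)), h, absurd e.symm (this j i h (by simpa using hi))]

theorem orbit_le (s : St p n V G β) (hK : K ≤ G) (hγ : LinChr K γ) {d : ℕ}
    (hd : ∀ k, 0 < k → k < d → γ ^ p ^ k ≠ γ) : d * mu K β γ ≤ n := by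
  classical
  have := sum_mu_le s.chr hK (S := (Finset.range d).image fun j => γ ^ p ^ j)
    (Finset.image_subset_iff.2 fun j _ => mem_irrs.2 (s.lin hγ j).irr)
  rwa [Finset.sum_image (s.pow_injOn hK hγ hd), Finset.sum_congr rfl fun j _ => s.mu_pow hK hγ j,
    Finset.sum_const, Finset.card_range, s.dg] at this

theorem orbit (s : St p n V G β) (hK : K ≤ G) (h : γ ∈ cs K β) (hγ : LinChr K γ)
    (hd : ∀ k, 0 < k → k < n → γ ^ p ^ k ≠ γ) :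
    (∀ θ ∈ cs K β, ∃ j < n, θ = γ ^ p ^ j) ∧ (cs K β).card = n ∧ (∀ θ, Irr K θ → mu K β θ ≤ 1) ∧
      cfker K γ = ⊥ ∧ γ ^ p ^ n = γ := by
  classical
  have h0 : ∀ j, γ ^ p ^ j ∈ cs K β := fun j =>
    mem_cs.2 ⟨(s.lin hγ j).irr, (s.mu_pow hK hγ j).trans_ne (mem_cs.1 h).2⟩
  have h1 : ((Finset.range n).image fun j => γ ^ p ^ j) ⊆ cs K β :=
    Finset.image_subset_iff.2 fun j _ => h0 j
  have h2 := Finset.card_image_of_injOn (s.pow_injOn hK hγ hd)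
  have h3 := card_cs_le_deg s.chr hK
  rw [Finset.card_range] at h2
  rw [s.dg] at h3
  have h4 := Finset.eq_of_subset_of_card_le h1 (h2.symm ▸ h3)
  have h5 : ∀ θ ∈ cs K β, ∃ j < n, θ = γ ^ p ^ j := fun θ hθ => by
    obtain ⟨j, hj, e⟩ := Finset.mem_image.1 (h4.symm ▸ hθ)
    exact ⟨j, Finset.mem_range.1 hj, e.symm⟩
  refine ⟨h5, h4 ▸ h2, fun θ => mu_le_one_of_card s.chr hK (by rw [s.dg, ← h4, h2]), ?_, ?_⟩
  · rw [← le_bot_iff, ← s.ker]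
    refine le_ker_of_cs s.chr hK (cfker_le _ _) fun θ hθ x hx => ?_
    obtain ⟨j, -, rfl⟩ := h5 θ hθ
    rw [(s.lin hγ j).mem_cfker, Pi.pow_apply, hγ.mem_cfker.1 hx, one_pow]
  · obtain ⟨j, hj, e⟩ := h5 _ (h0 n)
    have h6 := s.pow_inj hK (s.lin hγ (n - j)) hγ (j := j) (by
      rw [← pow_mul, ← pow_add, Nat.sub_add_cancel hj.le, e])
    by_cases h7 : j = 0
    · simpa [h7] using h6
    · exact absurd h6 (hd _ (by omega) (by omega))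

theorem ne_bot (s : St p n V G β) : V ≠ ⊥ :=
  (one_lt_card_iff_ne_bot V).1 (s.card ▸ Nat.one_lt_pow s.pos.ne' s.pr.one_lt)

theorem card_G (s : St p n V G β) (hv : v ∈ V) (h1 : v ≠ 1) : (p ^ n - 1) * #|G ⊓ 𝐂[v]| = #|G| := by
  classical
  rw [← card_class_mul (L := G) v ((Set.toFinite (V : Set Γ)).toFinset.erase 1) fun y => ?_,
    Finset.card_erase_of_mem (by simp), ← Set.ncard_eq_toFinset_card, ← s.card]
  · rfl
  · rw [Finset.mem_erase, Set.Finite.mem_toFinset]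
    refine ⟨fun h => (s.tr v hv y h.2 h1 h.1).imp fun g h => ⟨h.1, h.2.symm⟩, ?_⟩
    rintro ⟨g, hg, rfl⟩
    exact ⟨by simpa [mul_inv_eq_one] using h1, (conj_mem_iff_of_norm (s.norm hg)).2 hv⟩

theorem dvd_G (s : St p n V G β) : p ^ n - 1 ∣ #|G| := by
  obtain ⟨v, hv, h1⟩ := exists_mem_ne_one s.ne_bot
  exact ⟨_, (s.card_G hv h1).symm⟩

theorem G_dvd (s : St p n V G β) : #|G| ∣ ∏ i ∈ Finset.range n, (p ^ n - p ^ i) :=
  card_dvd_gl s.pr s.el s.card s.norm s.faith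

theorem exists_compl (s : St p n V G β) (hv : v ∈ V) (h1 : v ≠ 1) : ∃ W, W ≤ V ∧
    #|W| = p ^ (n - 1) ∧ G ⊓ 𝐂[v] ≤ 𝐍(W) ∧ G ⊓ 𝐂[v] ⊓ 𝐂(W) = ⊥ := by
  obtain ⟨W, h2, h3⟩ := B1.maschke_abelem s.pr s.el (A := G ⊓ 𝐂[v])
    (fun h => s.cop (h.trans (card_dvd_of_le inf_le_left))) (zpowers_le.2 hv)
    (inf_le_left.trans s.norm) (le_norm_zpowers_of_cent inf_le_right)
  refine ⟨W, h2.right_le, ?_, h3, by rw [inf_assoc, ← cent_zpowers, ← cent_sup, h2.sup, s.faith]⟩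
  have := h2.card
  rw [s.card, Nat.card_zpowers, orderOf_eq_of_abelem s.pr s.el hv h1,
    ← Nat.sub_add_cancel s.pos, pow_succ'] at this
  exact (Nat.eq_of_mul_eq_mul_left s.pr.pos this).symm

theorem H_dvd (s : St p n V G β) (hv : v ∈ V) (h1 : v ≠ 1) :
    #|G ⊓ 𝐂[v]| ∣ ∏ i ∈ Finset.range (n - 1), (p ^ (n - 1) - p ^ i) := by
  obtain ⟨W, h2, h3, h4, h5⟩ := s.exists_compl hv h1
  exact card_dvd_gl s.pr (abelem_of_le s.el h2) h3 h4 h5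

/-- abelian normal subgroups are semiregular -/
theorem reg (s : St p n V G β) (hT : T ⊴ G) (hc : IsMulCommutative T) : SemiReg V T := by
  intro t ht h1
  by_contra h
  obtain ⟨v, ⟨hv, h2⟩, h3⟩ := exists_mem_ne_one h
  have hTV := hT.le.trans s.norm
  obtain ⟨W, h4, h5⟩ := B1.maschke_abelem s.pr s.el (A := T) (U := V ⊓ 𝐂(T ⊓ 𝐂[v]))
    (fun h => s.cop (h.trans (card_dvd_of_le hT.le))) inf_le_left hTV
    (le_norm_subcent hTV (NormalIn.of_comm hc inf_le_left).norm)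
  have h6 : t ∈ T ⊓ 𝐂[v] := ⟨ht, mem_cent1_comm.1 h2⟩
  have h7 : v ∈ V ⊓ 𝐂(T ⊓ 𝐂[v]) := ⟨hv, le_cent1_iff.1 inf_le_right⟩
  obtain ⟨w, hw, h8⟩ := exists_mem_ne_one (H := W) fun e => by
    have h8 := h4.sup
    rw [e, sup_bot_eq, inf_eq_left] at h8
    exact h1 (mem_bot.1 (s.faith.le ⟨hT.le ht, le_cent_symm h8 h6⟩))
  obtain ⟨g, hg, e⟩ := s.tr v hv (v * w) (V.mul_mem hv (h4.right_le hw)) h3 fun e =>
    h8 (h4.sd.eq_one (by rw [eq_inv_of_mul_eq_one_right e]; exact inv_mem h7) hw)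
  have h9 : ∀ a ∈ T ⊓ 𝐂[v * w], a * w * a⁻¹ = w := fun a ha => by
    have e1 : v⁻¹ * (a * v * a⁻¹) = w * (a * w * a⁻¹)⁻¹ := by
      rw [inv_mul_eq_iff_eq_mul, ← mul_assoc, eq_mul_inv_iff_mul_eq, conj_mul, mem_cent1.1 ha.2,
        mul_inv_cancel_right]
    exact (mul_inv_eq_one.1 (h4.sd.eq_one (e1 ▸ mul_mem (inv_mem h7) ((conj_mem_iff_of_norm
      (le_norm_subcent hTV (NormalIn.of_comm hc inf_le_left).norm ha.1)).2 h7))
      (W.mul_mem hw (W.inv_mem ((conj_mem_iff_of_norm (h5 ha.1)).2 hw))))).symm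
  have h10 : T ⊓ 𝐂[v * w] = T ⊓ 𝐂[v] := eq_of_le_of_card_le (fun a ha => ⟨ha.1, mem_cent1.2 (by
    have e1 := mem_cent1.1 ha.2
    rw [← mul_assoc, mul_assoc v, ← mul_inv_eq_iff_eq_mul.1 (h9 a ha), ← mul_assoc] at e1
    exact mul_right_cancel e1)⟩) (by rw [← e, card_inf_cent1_conj (hT.norm hg)])
  exact h8 (h4.sd.eq_one ⟨h4.right_le hw, mem_cent.2 fun a ha =>
    mul_inv_eq_iff_eq_mul.1 (h9 a (h10.ge ha))⟩ hw)

theorem card_dvd (s : St p n V G β) (hT : T ⊴ G) (hc : IsMulCommutative T) : #|T| ∣ p ^ n - 1 :=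
  s.card ▸ (s.reg hT hc).card_dvd (hT.le.trans s.norm)

theorem faith_of_reg (s : St p n V G β) (hT : T ≤ G) (h : SemiReg V T) (hγ : γ ∈ cs T β)
    (hl : LinChr T γ) : cfker T γ = ⊥ := by
  by_contra h1
  obtain ⟨y, hy, h2⟩ := exists_mem_ne_one h1
  have h3 := zpowers_le.2 hy.1
  have h4 := res_mem_cs s.chr hT h3 hγ hl
  rw [res_eq_smul_cf1_of_le_cfker (zpowers_le.2 hy), hl.2, one_smul] at h4
  exact s.fix y (hT hy.1) (h y hy.1 h2) h4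

theorem modEq (s : St p n V G β) (hK : K ≤ G) (hT : T ≤ K) (hc : IsCyclic T)
    (hf : ∀ α ∈ cs T β, cfker T α = ⊥) (hγ : γ ∈ cs K β) (hl : LinChr K γ) {k : ℕ}
    (e : γ ^ p ^ k = γ) : #|T| ∣ p ^ k - 1 :=
  (Nat.modEq_iff_dvd' (pow_pos s.pr.pos k)).1 (lin_pow_modEq hc (hl.res hT)
    (hf _ (res_mem_cs s.chr hK hT hγ hl)) fun x hx => by simpa [hx] using (congrFun e x).symm)

/-- Sylow subgroups for primes exceeding the degree are abelian -/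
theorem comm (s : St p n V G β) (hr : r.Prime) (h : n < r) (hK : K ≤ G) (hp : IsPGroup r K) :
    IsMulCommutative K := comm_of_lin s.chr s.ker hK fun χ hχ => by
  obtain ⟨a, ha⟩ := pgroup_card hr hp
  obtain ⟨b, -, hb⟩ := (Nat.dvd_prime_pow hr).1 (ha ▸ deg_dvd (mem_cs.1 hχ).1)
  have := deg_le_of_cs s.chr hK hχ
  rw [s.dg, hb] at this
  cases b with
  | zero => simp [hb]
  | succ b => exact absurd ((Nat.le_self_pow b.succ_ne_zero r).trans this) h.not_ge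

end St

end Cfsg.Agent.Tr
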