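import Cfsg.Agent.Tr.Num
import Cfsg.Agent.FT.Main

/-! Degree one, characteristic two, and the generic case. -/

set_option autoImplicit false

namespace Cfsg.Agent.Tr

open Subgroup Cfsg.Agent.H1 Cfsg.Agent.L Cfsg.Agent.H3 Cfsg.Agent.FT
open scoped Pointwise ComplexConjugate commutatorElement

variable {Γ : Type*} [Group Γ] [Finite Γ] {p n r : ℕ} {V G H K T A : Subgroup Γ}
  {β α γ θ χ : Γ → ℂ} {x y v : Γ}

theorem sylow_pow_dvd (hr : r.Prime) (hA : IsSylowIn r A G) {a : ℕ} (h : r ^ a ∣ #|G|) :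
    r ^ a ∣ #|A| :=
  haveI := Fact.mk hr
  (((Nat.Prime.coprime_iff_not_dvd hr).2 hA.not_dvd_relIndex).pow_left a).dvd_of_dvd_mul_right
    ((card_mul_relIndex_of_le hA.le).symm ▸ h)

namespace St

theorem con_one (s : St p 1 V G β) : Con p 1 G :=
  s.gamma (NormalIn.refl G) (comm_of_lin s.chr s.ker le_rfl fun _ hχ =>
    s.dg ▸ deg_le_of_cs s.chr le_rfl hχ) inf_le_left fun _ h1 h2 => by omega

theorem cyc_of_normal (s : St p n V G β) (hT : T ⊴ G) (hc : IsMulCommutative T) : IsCyclic T := by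
  obtain ⟨γ, hγ⟩ := cs_nonempty s.chr hT.le (s.dg ▸ s.pos.ne')
  exact cyclic_of_lin (mem_cs.1 hγ).1.linChr_of_comm
    (s.faith_of_reg hT.le (s.reg hT hc) hγ (mem_cs.1 hγ).1.linChr_of_comm)

theorem deg_le_two (s : St p 6 V G β) (hx : x ∈ G) (hn : G ≤ 𝐍(zpowers x))
    (hd : ∀ k, 0 < k → k < 3 → ¬ orderOf x ∣ p ^ k - 1) (hχ : χ ∈ cs (G ⊓ 𝐂[x]) β) : deg χ ≤ 2 := by
  have hZ := zpowers_le.2 hx
  refine deg_le_of_cent s.chr inf_le_left (le_inf hZ (zpowers_le_cent1 x))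
    (inf_le_right.trans (cent_zpowers x).ge) (fun θ hθ => ?_) hχ
  by_cases h0 : mu (zpowers x) β θ = 0
  · omega
  have := s.orbit_le hZ hθ.linChr_of_comm (d := 3) fun k h1 h2 e => hd k h1 h2 (by
    rw [← Nat.card_zpowers]
    exact s.modEq hZ le_rfl inferInstance (fun α hα => s.faith_of_reg hZ
      (s.reg ⟨hZ, hn⟩ inferInstance) hα (mem_cs.1 hα).1.linChr_of_comm) (mem_cs.2 ⟨hθ, h0⟩)
      hθ.linChr_of_comm e)
  omega

theorem norm_odd (s : St p n V G β) (ho : Odd #|G|) (hr : r.Prime) (h : n < r) (hx : x ∈ G)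
    (hx' : orderOf x = r) : G ≤ 𝐍(zpowers x) := by
  have hZ := zpowers_le.2 hx
  have hA : #|zpowers x| = r := (Nat.card_zpowers x).trans hx'
  have hp := pgroup_of_card_prime hA
  have h1 : zpowers x ≤ 𝐂(core {r}ᶜ G) := by
    by_contra hc
    obtain ⟨χ, hχ, h1, -⟩ := exists_bad_sd s.chr s.ker hr hA hZ (core_le _ G)
      (hZ.trans (core_normal _ G).norm) (not_dvd_card_core hr G) hc
    have hL := sup_le (core_le {r}ᶜ G) hZ
    have h2 := card_cs_le_deg (mem_cs.1 hχ).1.chr (le_sup_right (a := core {r}ᶜ G))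
    have h3 := deg_le_of_cs s.chr hL hχ
    have h4 := Nat.odd_iff.1 (ho.of_dvd_nat ((deg_dvd (mem_cs.1 hχ).1).trans (card_dvd_of_le hL)))
    have h5 := Nat.odd_iff.1 (ho.of_dvd_nat (hA ▸ card_dvd_of_le hZ))
    rw [s.dg] at h3
    omega
  have h2 := s.comm hr h (sup_le hZ (core_le _ G)) (pgroup_sup hp
    (core_pgroup hr G) (Or.inl (hZ.trans (core_normal _ G).norm)))
  have h3 : zpowers x ≤ core {r} G := le_core_of_le_fit ((le_inf hZ (le_cent_of_le (by
    rw [cent_sup]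
    exact le_inf (le_cent_of_le (le_sup_left.trans (le_cent_self h2)) le_sup_right) h1)
    (fit_le_sup_core hr G))).trans (inf_cent_fit_le (feit_thompson G ho)))
    ((piGrp_iff_isPGroup hr).2 hp)
  exact (core_normal _ G).norm.trans (norm_le_norm_of_cyclic (s.cyc_of_normal (core_normal _ G)
    (s.comm hr h (core_le _ G) (core_pgroup hr G))) h3)

theorem con_two (s : St 2 n V G β) : Con 2 n G := by
  have ho : Odd #|G| := Nat.odd_iff.2 (Nat.two_dvd_ne_zero.1 s.cop)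
  rcases eq_or_lt_of_le (show 1 ≤ n from s.pos) with rfl | h1
  · exact s.con_one
  by_cases h6 : n = 6
  · subst h6
    have h63 : 63 ∣ #|G| := s.dvd_G
    obtain ⟨x, hx, hx'⟩ := exists_mem_orderOf_eq (p := 7) (by norm_num)
      (Dvd.dvd.trans (by norm_num) h63)
    have hn := s.norm_odd ho (by norm_num) (by norm_num) hx hx'
    refine s.gamma1 hx hn (comm_of_lin s.chr s.ker inf_le_left fun χ hχ => ?_) fun k h1 h2 e => ?_
    · have h2 := s.deg_le_two hx hn (fun k h1 h2 => by rw [hx']; interval_cases k <;> norm_num) hχ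
      have := Nat.odd_iff.1 (ho.of_dvd_nat ((deg_dvd (mem_cs.1 hχ).1).trans
        (card_dvd_of_le inf_le_left)))
      omega
    · have h3 := (B1.relIndex_cent_prime_dvd (p := 7) (by norm_num)
        ((Nat.card_zpowers x).trans hx') hn).1
      rw [cent_zpowers, ← inf_relIndex_left] at h3
      have h4 := card_mul_relIndex_of_le (inf_le_left : G ⊓ 𝐂[x] ≤ G)
      have h5 := Nat.odd_iff.1 (ho.of_dvd_nat (Dvd.intro_left _ h4))
      have h6 := Nat.le_of_dvd (by norm_num) h3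
      have h7 : 21 ∣ #|G ⊓ 𝐂[x]| := by
        rw [← h4] at h63
        generalize (G ⊓ 𝐂[x]).relIndex G = i at *
        interval_cases i <;> omega
      have := h7.trans e
      interval_cases k <;> omega
  obtain ⟨r, h⟩ := zsig_two h1 h6
  obtain ⟨x, hx, hx'⟩ := exists_mem_orderOf_eq h.pr (h.dvd.trans s.dvd_G)
  exact s.fin_ppd h hx hx' (s.norm_odd ho h.pr (h.lt two_pos s.pos) hx hx')

theorem con_of_ppd (s : St p n V G β) (h : Ppd p n r) {a : ℕ} (ha : r ^ (a + 1) ∣ p ^ n - 1)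
    (hm : ∀ m, m ∣ n → ¬ p ∣ m → 3 * m ≤ r ^ a * (r - 1)) : Con p n G := by
  obtain h1 | ⟨A, m, hA, -, h2, h3, h4, -⟩ := s.use1 h
  · exact h1
  have h5 := sylow_pow_dvd h.pr hA (ha.trans s.dvd_G)
  have := Nat.le_of_dvd (Nat.totient_pos.2 Nat.card_pos) (Nat.totient_dvd_of_dvd h5)
  rw [Nat.totient_prime_pow_succ h.pr] at this
  exact absurd ((hm m h2 h3).trans this) h4.not_ge

theorem con_gen (s : St p n V G β) (hp : p ≠ 2) (hn : 3 ≤ n) :
    Con p n G ∨ p = 3 ∧ n = 4 ∨ n = 6 ∧ (p = 5 ∨ p = 17) := by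
  have h2 := s.pr.two_le
  obtain ⟨r, h, h1⟩ | ⟨rfl, rfl | rfl | rfl⟩ | h :=
    zsig_big (a := p) (by omega) (s.pr.eq_two_or_odd.resolve_left hp) hn
  · have h3 := h.lt s.pr.pos s.pos
    rcases h1 with h1 | h1
    · refine Or.inl (s.con_of_ppd h (a := 1) (by rwa [← sq] at h1) fun m h4 _ => ?_)
      have := Nat.le_of_dvd s.pos h4
      exact Nat.mul_le_mul (by rw [pow_one]; omega) (by omega)
    · refine Or.inl (s.con_of_ppd h (a := 0) (by simpa using h.dvd) fun m h4 _ => ?_)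
      have := Nat.le_of_dvd s.pos h4
      rw [pow_zero]
      omega
  · exact Or.inr (Or.inl ⟨rfl, rfl⟩)
  · refine Or.inl (s.con_of_ppd (r := 7) ⟨by norm_num, by norm_num, fun k h1 h2 => ?_⟩ (a := 0)
      (by norm_num) fun m h4 h5 => ?_)
    · interval_cases k <;> norm_num
    · have := Nat.le_of_dvd s.pos h4
      interval_cases m <;> omega
  · refine Or.inl (s.con_of_ppd (r := 19) ⟨by norm_num, by norm_num, fun k h1 h2 => ?_⟩ (a := 0)
      (by norm_num) fun m h4 h5 => ?_)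
    · interval_cases k <;> norm_num
    · have := Nat.le_of_dvd s.pos h4
      interval_cases m <;> omega
  · exact Or.inr (Or.inr h)

end St

end Cfsg.Agent.Tr
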