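import Cfsg.Agent.Tr.M

/-! A non-normal cyclic TI Sylow subgroup gives a constituent with restricted invariants. -/

set_option autoImplicit false

namespace Cfsg.Agent.Tr

open Subgroup Cfsg.Agent.H1 Cfsg.Agent.L Cfsg.Agent.H3 Cfsg.Agent.FT
open scoped Pointwise ComplexConjugate commutatorElement

variable {Γ : Type*} [Group Γ] [Finite Γ] {r : ℕ} {H L A B K Q : Subgroup Γ} {χ α β γ : Γ → ℂ}

theorem cs_mul_star (hχ : Chr H χ) (hA : A ≤ H) (hc : IsMulCommutative A)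
    (hγ : γ ∈ cs A (χ * cfStar χ)) : ∃ α ∈ cs A χ, ∃ α' ∈ cs A χ, γ = α * cfStar α' := by
  obtain ⟨h1, h2⟩ := mem_cs.1 hγ
  have h3 := dot_ne_zero_of_mu h2
  rw [dot_mul_left, cfStar_cfStar, ← dot_res_left] at h3
  obtain ⟨α, h4, h5, h6⟩ := (hχ.res hA).cf.exists_common_constituent h3
  rw [dot_res_left] at h5
  rw [dot_mul_left] at h6
  have h7 := h1.linChr_of_comm.cfStar.mul h4.linChr_of_comm
  refine ⟨α, mem_cs.2 ⟨h4, (mu_ne_zero hχ h4.chr hA le_rfl).2 h5⟩, _,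
    mem_cs.2 ⟨h7.irr, (mu_ne_zero hχ h7.1 hA le_rfl).2 h6⟩, ?_⟩
  rw [cfStar_mul, cfStar_cfStar, mul_left_comm, h4.linChr_of_comm.mul_cfStar, mul_cf1, h1.cf.res_eq]

theorem faith_of_prime (hA : (#|A|).Prime) (hα : Irr A α) : α = cf1 A ∨ cfker A α = ⊥ :=
  ((eq_bot_or_eq_of_prime hA (cfker_le A α)).imp_right fun e =>
    hα.le_cfker_iff_eq_cf1.1 e.ge).symm

theorem eq_of_mul_star (hα : LinChr A α) (hγ : LinChr A γ) (h : α * cfStar γ = cf1 A) : α = γ :=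
  calc α = α * (γ * cfStar γ) := by rw [hγ.mul_cfStar, mul_cf1, hα.1.cf.res_eq]
    _ = γ := by rw [mul_left_comm, h, mul_cf1, hγ.1.cf.res_eq]

theorem W.nums (w : W r L A B) (hχ : Irr L χ) (hF : ∀ α ∈ cs A χ, α = cf1 A ∨ cfker A α = ⊥)
    (hs : 2 ≤ (cs A χ).card) {e : ℕ} (he : (L ⊓ 𝐂(A)).relIndex (L ⊓ 𝐍(A)) = e) :
    e ≤ (cs A χ).card ∧ (cf1 A ∉ cs A χ → e ∣ (cs A χ).card) ∧
      (cf1 A ∈ cs A χ → e < (cs A χ).card) ∧ (cs A χ).card ≤ mu (L ⊓ 𝐂(A)) χ χ ∧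
      (cs A χ).card ≤ deg χ ∧ (deg χ ≤ (cs A χ).card → mu (L ⊓ 𝐂(A)) χ χ ≤ (cs A χ).card) := by
  classical
  have hA := w.syl.le
  have hi : L ⊓ 𝐍(A) ≤ inert χ := inf_le_left.trans hχ.cf.le_inert
  obtain ⟨α, hα, h1⟩ := Finset.exists_mem_ne hs (cf1 A)
  have h2 := he ▸ W.e_le w.comm hi hα ((hF α hα).resolve_left h1)
  refine ⟨h2.trans (Finset.card_filter_le _ _), fun h => ?_, fun h => h2.trans_lt
    (Finset.card_lt_card (Finset.filter_ssubset.2 ⟨_, h, by rw [cfker_cf1]; exact w.ne⟩)),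
    card_cs_le_nu_dp w.dp hχ.chr inf_le_left, card_cs_le_deg hχ.chr hA, fun h =>
      (nu_mono (hχ.chr.res inf_le_left) le_rfl w.dp.left_le).trans' ?_ |>.trans ?_⟩
  · have := he ▸ W.g2 w.comm hi
    rwa [Finset.filter_true_of_mem fun γ hγ => (hF γ hγ).resolve_left fun e => h (e ▸ hγ)] at this
  · exact (mu_congr (by rw [dot_res_left, dot_res_right])).le
  · rw [← nu_eq_of_mu_le_one hχ.chr hA fun γ hγ => mu_le_one_of_card hχ.chr hA h hγ]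
    exact (mu_congr (by rw [dot_res_left_of_le w.dp.left_le, dot_res_right_of_le w.dp.left_le])).le

theorem exists_bad (hβ : Chr H β) (hf : cfker H β = ⊥) (pr : r.Prime) (syl : IsSylowIn r A H)
    (cyc : IsCyclic A) (ne : A ≠ ⊥) (cent : ∀ x ∈ A, x ≠ 1 → H ⊓ 𝐂[x] ≤ 𝐂(A))
    (hF : ∀ α ∈ cs A β, α = cf1 A ∨ cfker A α = ⊥)
    (hq : ∀ α ∈ cs A β, ∀ α' ∈ cs A β, α = α' ∨ cfker A (α * cfStar α') = ⊥) (hn : ¬ H ≤ 𝐍(A)) :
    ∃ L, A ≤ L ∧ L ≤ H ∧ (∀ K, K ⊴ H → A ≤ K → L ≤ K) ∧ ∃ χ ∈ cs L β, ∃ e ν s : ℕ,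
      s = (cs A χ).card ∧ 2 ≤ s ∧ 0 < e ∧ e ∣ #|H| ∧ e ≤ s ∧ (cf1 A ∉ cs A χ → e ∣ s) ∧ s ≤ ν ∧
      s ≤ deg χ ∧ (deg χ ≤ s → ν ≤ s) ∧ #|A| * ν ≤ e * #|A| + s * ν ∧
      (e < ν ∨ s = e ∧ ((#|A|).totient - e) ^ 2 * e ≤ (#|A|).totient * deg χ ^ 2) := by
  obtain ⟨L, hL⟩ : ∃ L, L = sSup {P | IsSylowIn r P H} := ⟨_, rfl⟩
  have h1 : ∀ P, IsSylowIn r P H → P ≤ L := fun P h => hL ▸ le_sSup h
  have h2 : L ≤ H := hL ▸ sSup_le fun P h => h.le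
  have h3 : ∀ M K, A ≤ M → M ≤ H → K ⊴ M → A ≤ K → L ≤ M → L ≤ K := fun M K h3 h4 h5 h6 h7 =>
    hL ▸ sSup_le fun P h => by
      obtain ⟨g, hg, rfl⟩ := sylow_exists_conj_eq pr (syl.of_le h3 h4) (h.of_le ((h1 P h).trans h7) h4)
      exact conj_le_of_mem_norm (h5.norm hg) h6
  have hA := h1 A syl
  obtain ⟨B, w⟩ := exists_W pr (syl.of_le hA h2) cyc ne fun x hx h =>
    (inf_le_inf_right _ h2).trans (cent x hx h)
  obtain ⟨χ, hχ, hs⟩ : ∃ χ ∈ cs L β, 2 ≤ (cs A χ).card := by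
    by_contra! h
    have h4 := le_cent_of_card_cs hβ hf h2 hA w.comm fun χ hχ => Nat.le_of_lt_succ (h χ hχ)
    exact hn fun g hg => mem_norm_of_conj_le (sylow_le_of_norm pr syl (conj_le_of_mem hg syl.le)
      (pgroup_conj syl.isPGroup g) (Or.inr (le_norm_of_le_cent
        ((h1 _ (sylow_conj_mem pr syl hg)).trans h4))))
  have h4 := (mem_cs.1 hχ).1
  have h5 := cs_trans hβ h2 hA hχ
  obtain ⟨n1, n2, n3, n4, n5, n6⟩ := w.nums h4 (fun α h => hF α (h5 h)) hs rfl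
  refine ⟨L, hA, h2, fun K h6 h7 => h3 H K syl.le le_rfl h6 h7 h2, χ, hχ, _, _, _, rfl, hs,
    relIndex_pos' _ _, (relIndex_dvd_card' _ _).trans (card_dvd_of_le (inf_le_left.trans h2)), n1,
    n2, n4, n5, n6, w.g1 h4, (lt_or_ge _ _).imp_right fun h => ⟨by omega, w.M (fun ψ hψ hk =>
      hψ.le_cfker_iff_eq_cf1.1 (h3 L _ hA h2 hψ.cf.cfker_normal hk le_rfl)) h4
      (fun α hα => (hF α (h5 hα)).resolve_left fun e => by have := n3 (e ▸ hα); omega)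
      (fun γ hγ => ?_) rfl h (by omega)⟩⟩
  obtain ⟨α, hα, α', hα', rfl⟩ := cs_mul_star h4.chr hA w.comm hγ
  haveI := w.comm
  exact (hq α (h5 hα) α' (h5 hα')).imp_left fun e => by
    rw [← e, (mem_cs.1 hα).1.linChr_of_comm.mul_cfStar]

/-- the case of a Sylow subgroup of prime order -/
theorem exists_bad_prime (hβ : Chr H β) (hf : cfker H β = ⊥) (pr : r.Prime) (syl : IsSylowIn r A H)
    (hA : #|A| = r) (hn : ¬ H ≤ 𝐍(A)) : ∃ e ν s m : ℕ, 2 ≤ s ∧ 0 < e ∧ e ∣ #|H| ∧ e ≤ s ∧ s ≤ ν ∧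
      s ≤ m ∧ m ≤ deg β ∧ (m ≤ s → ν ≤ s) ∧ r * ν ≤ e * r + s * ν ∧
      (e < ν ∨ s = e ∧ (r - 1 - e) ^ 2 * e ≤ (r - 1) * m ^ 2) := by
  have h1 : (#|A|).Prime := hA ▸ pr
  haveI := comm_of_cyclic (cyclic_of_prime h1)
  obtain ⟨L, -, h2, -, χ, hχ, e, ν, s, -, a1, a2, a3, a4, -, a5, a6, a7, a8, a9⟩ :=
    exists_bad hβ hf pr syl (cyclic_of_prime h1) (ne_bot_of_prime h1)
      (fun x hx h => by rw [cent1_eq_cent_of_prime h1 hx h]; exact inf_le_right)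
      (fun α h => faith_of_prime h1 (mem_cs.1 h).1) (fun α h α' h' =>
        (faith_of_prime h1 ((mem_cs.1 h).1.mul_lin (mem_cs.1 h').1.linChr_of_comm.cfStar)).imp_left
          (eq_of_mul_star (mem_cs.1 h).1.linChr_of_comm (mem_cs.1 h').1.linChr_of_comm)) hn
  rw [hA, Nat.totient_prime pr] at a9
  exact ⟨e, ν, s, _, a1, a2, a3, a4, a5, a6, deg_le_of_cs hβ h2 hχ, a7, hA ▸ a8, a9⟩

/-- a subgroup of prime order acting nontrivially on a subgroup of coprime order -/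
theorem exists_bad_sd (hβ : Chr H β) (hf : cfker H β = ⊥) (pr : r.Prime) (hA : #|A| = r)
    (hAH : A ≤ H) (hQ : Q ≤ H) (hn : A ≤ 𝐍(Q)) (hr : ¬ r ∣ #|Q|) (hc : ¬ A ≤ 𝐂(Q)) :
    ∃ χ ∈ cs (Q ⊔ A) β, r - 1 ≤ (cs A χ).card ∧
      r * mu ((Q ⊔ A) ⊓ 𝐂(A)) χ χ + mu Q χ χ ≤ r + mu (Q ⊓ 𝐂(A)) χ χ := by
  have h1 : (#|A|).Prime := hA ▸ pr
  have cop : (#|Q|).Coprime #|A| := (hA ▸ (Nat.Prime.coprime_iff_not_dvd pr).2 hr).symm
  have sd := SDProd.mk_sup hn (inf_eq_bot_of_coprime' cop)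
  haveI := Fact.mk pr
  have w : W r (Q ⊔ A) A (Q ⊓ 𝐂(A)) := ⟨pr, isSylowIn_of_not_dvd_relIndex le_sup_right
    (pgroup_of_card_prime hA) (sd.relIndex_right ▸ hr), cyclic_of_prime h1, ne_bot_of_prime h1,
    fun x hx h => by rw [cent1_eq_cent_of_prime h1 hx h]; exact inf_le_right,
    ((sd.inf_left (le_cent_self (comm_of_cyclic (cyclic_of_prime h1)))).dprod
      (le_cent_symm inf_le_right)).symm⟩
  have he : ((Q ⊔ A) ⊓ 𝐂(A)).relIndex ((Q ⊔ A) ⊓ 𝐍(A)) = 1 := by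
    rw [relIndex_eq_one, ← (sd.inf_left le_normalizer).sup]
    exact sup_le (le_inf (inf_le_left.trans le_sup_left) (le_cent_of_disjoint
      (le_normalizer_inf hn (le_normalizer.trans le_normalizer)) inf_le_right
        (le_bot_iff.1 ((inf_le_inf_right _ inf_le_left).trans sd.disj.le)))) w.dp.left_le
  obtain ⟨χ, hχ, hs⟩ : ∃ χ ∈ cs (Q ⊔ A) β, 2 ≤ (cs A χ).card := by
    by_contra! h
    exact hc (le_cent_symm (le_sup_left.trans (le_cent_of_card_cs hβ hf (sup_le hQ hAH) le_sup_right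
      w.comm fun χ hχ => Nat.le_of_lt_succ (h χ hχ))))
  have h2 := (mem_cs.1 hχ).1
  have h3 := w.g1 h2
  have h4 := w.ti_nat h2 le_sup_left hr
  have h5 := card_cs_le_nu_dp w.dp h2.chr inf_le_left
  rw [he, one_mul, hA] at h3 h4
  refine ⟨χ, hχ, ?_, Nat.le_of_mul_le_mul_left ?_ (Nat.card_pos (α := ↥(Q ⊔ A)))⟩
  · by_contra! h
    obtain ⟨d, hd⟩ : ∃ d, r = (cs A χ).card + 2 + d := ⟨r - ((cs A χ).card + 2), by omega⟩
    have h6 : r ≠ 4 := fun e => by norm_num [e] at pr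
    generalize (cs A χ).card = s at *
    subst hd
    have h7 : (2 + d) * s ≤ s + 2 + d := by nlinarith
    rcases (by omega : s = 2 ∨ 3 ≤ s) with rfl | h8
    · omega
    · nlinarith
  · rw [mul_add, sd.card, hA] at *
    linarith

end Cfsg.Agent.Tr
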