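import Cfsg.Agent.Tr.Chr

/-! Groups with a cyclic TI Sylow subgroup: the basic norm inequalities. -/

set_option autoImplicit false

namespace Cfsg.Agent.Tr

open Subgroup Cfsg.Agent.H1 Cfsg.Agent.L Cfsg.Agent.H3 Cfsg.Agent.FT
open scoped Pointwise ComplexConjugate commutatorElement

variable {Γ : Type*} [Group Γ] [Finite Γ]

omit [Finite Γ] in
theorem der1_norm_le_cent {A : Subgroup Γ} (hA : IsCyclic A) : ⁅𝐍(A), 𝐍(A)⁆ ≤ 𝐂(A) := by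
  obtain ⟨a, rfl⟩ := cyclic_iff.1 hA
  refine commutator_le.2 fun g hg h hh => mem_cent.2 fun x hx => ?_
  obtain ⟨i, hi⟩ := mem_zpowers_iff.1 ((conj_mem_iff_of_norm hg).2 (mem_zpowers a))
  obtain ⟨j, hj⟩ := mem_zpowers_iff.1 ((conj_mem_iff_of_norm hh).2 (mem_zpowers a))
  have h1 : ∀ y ∈ zpowers a, g * (h * y * h⁻¹) * g⁻¹ = h * (g * y * g⁻¹) * h⁻¹ := by
    rintro _ ⟨k, rfl⟩
    simp only [← conj_zpow, ← hi, ← hj, ← zpow_mul, mul_comm, mul_left_comm]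
  have h2 := h1 (g⁻¹ * (h⁻¹ * x * h⁻¹⁻¹) * g⁻¹⁻¹) ((conj_mem_iff_of_norm (inv_mem hg)).2
    ((conj_mem_iff_of_norm (inv_mem hh)).2 hx))
  rw [commutatorElement_def, ← mul_inv_eq_iff_eq_mul]
  calc x * (g * h * g⁻¹ * h⁻¹) * x⁻¹ = (h * (g * (g⁻¹ * (h⁻¹ * x * h⁻¹⁻¹) * g⁻¹⁻¹) * g⁻¹) * h⁻¹) *
        (g * h * g⁻¹ * h⁻¹) * x⁻¹ := by group
    _ = _ := by rw [← h2]; group

theorem card_mul_nrm_le {K L : Subgroup Γ} (h : K ≤ L) (f : Γ → ℂ) :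
    #|K| * nrm K f ≤ #|L| * nrm L f := by
  have h1 : nrm L f = nrm L (res K f) + nrm L (f - res K f) := by
    rw [← nrm_add_of_ortho (dot_eq_zero_of_mul fun x _ => ?_), add_sub_cancel]
    by_cases hx : x ∈ K
    · simp [hx]
    · simp [res_apply_of_notMem f hx]
  have h2 := card_mul_dot_of_supp (φ := res K f) (ψ := res K f) h fun x _ hx => by
    simp [res_apply_of_notMem f hx]
  rw [dot_res_left, dot_res_right, dot_self_eq_nrm, dot_self_eq_nrm] at h2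
  have h3 : #|L| * nrm L (res K f) = #|K| * nrm K f := by exact_mod_cast h2
  have := mul_nonneg (card_pos_R L).le (nrm_nonneg L (f - res K f))
  rw [h1, mul_add, h3]
  linarith

theorem nrm_eq_mu {H K : Subgroup Γ} {φ : Γ → ℂ} (hφ : Chr H φ) (h : K ≤ H) :
    nrm K φ = mu K φ φ := nrm_eq_of_dot (by rw [dot_eq_mu hφ hφ h h]; simp)

/-- conjugation action on functions -/
def actJ (Γ : Type*) [Group Γ] : Γ →* Equiv.Perm (Γ → ℂ) where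
  toFun g := ⟨fun φ => cfJ φ g⁻¹, fun φ => cfJ φ g, fun φ => cfJ_inv_cfJ φ g, fun φ => cfJ_cfJ_inv φ g⟩
  map_one' := by ext φ x; simp
  map_mul' g h := by ext φ x; simp [cfJ, mul_assoc]

section DP
variable {H A B C : Subgroup Γ} {φ α θ α' θ' : Γ → ℂ}

theorem mu_cfDp_right (h : DProd A B C) (hα : LinChr A α) (hθ : Irr B θ) (θ' : Γ → ℂ) :
    mu B (cfDp h α θ) θ' = mu B θ θ' :=
  mu_congr (by rw [← dot_res_left, res_cfDp_right h α hθ.zero, hα.2, one_smul])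

theorem mu_cfDp_left (h : DProd A B C) (hα : Irr A α) (hθ : Irr B θ) (hα' : Irr A α') :
    mu A (cfDp h α θ) α' = deg θ * mu A α α' := by
  apply mu_of_dot
  rw [← dot_res_left, res_cfDp_left h hα.zero, dot_smul_left, deg_eq hθ.chr,
    dot_eq_mu hα.chr hα'.chr le_rfl le_rfl, Nat.cast_mul]

theorem mu_right_eq (h : DProd A B C) (hA : IsMulCommutative A) (hφ : Chr H φ) (hC : C ≤ H)
    (hθ : Irr B θ) : mu B φ θ = ∑ α ∈ irrs A, mu C φ (cfDp h α θ) := by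
  classical
  rw [mu_sum hφ hC h.right_le hθ.chr le_rfl, sum_irrs_dprod h]
  refine Finset.sum_congr rfl fun α hα => ?_
  rw [Finset.sum_eq_single_of_mem θ (mem_irrs.2 hθ) fun θ' h1 h2 => ?_,
    mu_cfDp_right h (mem_irrs.1 hα).linChr_of_comm hθ, mu_irr_self hθ, mul_one]
  rw [mu_cfDp_right h (mem_irrs.1 hα).linChr_of_comm (mem_irrs.1 h1), mu_irr (mem_irrs.1 h1) hθ,
    if_neg h2, mul_zero]

theorem mem_cs_of_cfDp (h : DProd A B C) (hφ : Chr H φ) (hC : C ≤ H) (hα : Irr A α) (hθ : Irr B θ)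
    (h0 : mu C φ (cfDp h α θ) ≠ 0) : α ∈ cs A φ :=
  cs_trans hφ hC h.left_le (mem_cs.2 ⟨irr_cfDp h hα hθ, h0⟩) (mem_cs.2 ⟨hα, by
    rw [mu_cfDp_left h hα hθ hα, mu_irr_self hα, mul_one]; exact (deg_pos hθ).ne'⟩)

theorem nu_dp (h : DProd A B C) (hφ : Chr H φ) (hC : C ≤ H) :
    mu C φ φ = ∑ α ∈ cs A φ, ∑ θ ∈ irrs B, mu C φ (cfDp h α θ) ^ 2 := by
  rw [nu_sum hφ hC, sum_irrs_dprod h]
  refine (Finset.sum_subset cs_subset fun α h1 h2 => Finset.sum_eq_zero fun θ hθ => ?_).symm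
  rw [not_not.1 fun e => h2 (mem_cs_of_cfDp h hφ hC (mem_irrs.1 h1) (mem_irrs.1 hθ) e),
    zero_pow two_ne_zero]

theorem card_cs_le_nu_dp (h : DProd A B C) (hφ : Chr H φ) (hC : C ≤ H) :
    (cs A φ).card ≤ mu C φ φ := by
  classical
  rw [nu_dp h hφ hC, Finset.card_eq_sum_ones]
  refine Finset.sum_le_sum fun α hα => ?_
  obtain ⟨h1, h2⟩ := mem_cs.1 hα
  obtain ⟨χ, h3, h4⟩ := exists_cs_over hφ hC h.left_le h1.chr le_rfl h2
  obtain ⟨α', θ, h5, h6, rfl⟩ := (mem_cs.1 h3).1.exists_cfDp h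
  rw [mu_cfDp_left h h5 h6 h1, mu_irr h5 h1] at h4
  obtain rfl : α' = α := by by_contra e; simp [e] at h4
  exact (Nat.one_le_pow _ _ (Nat.pos_of_ne_zero (mem_cs.1 h3).2)).trans
    (Finset.single_le_sum (f := fun θ => mu C φ (cfDp h α' θ) ^ 2) (fun _ _ => Nat.zero_le _)
      (mem_irrs.2 h6))

theorem nu_right_le (h : DProd A B C) (hA : IsMulCommutative A) (hφ : Chr H φ) (hC : C ≤ H) :
    mu B φ φ ≤ (cs A φ).card * mu C φ φ := by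
  rw [nu_dp h hφ hC, nu_sum hφ (h.right_le.trans hC), Finset.sum_comm, Finset.mul_sum]
  refine Finset.sum_le_sum fun θ hθ => ?_
  rw [mu_right_eq h hA hφ hC (mem_irrs.1 hθ), ← Finset.sum_subset (cs_subset (φ := φ))
    fun α h1 h2 => not_not.1 fun e => h2 (mem_cs_of_cfDp h hφ hC (mem_irrs.1 h1) (mem_irrs.1 hθ) e)]
  exact sq_sum_le_card_mul_sum_sq

end DP

/-- `A` is a nontrivial cyclic Sylow `r`-subgroup of `L`, all of whose nonidentity elements have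
the centraliser `C_L(A) = A × B`. -/
structure W (r : ℕ) (L A B : Subgroup Γ) : Prop where
  pr : r.Prime
  syl : IsSylowIn r A L
  cyc : IsCyclic A
  ne : A ≠ ⊥
  cent : ∀ x ∈ A, x ≠ 1 → L ⊓ 𝐂[x] ≤ 𝐂(A)
  dp : DProd A B (L ⊓ 𝐂(A))

variable {r : ℕ} {H L A B Q : Subgroup Γ} {φ χ : Γ → ℂ}

theorem exists_W (pr : r.Prime) (syl : IsSylowIn r A L) (cyc : IsCyclic A) (ne : A ≠ ⊥)
    (cent : ∀ x ∈ A, x ≠ 1 → L ⊓ 𝐂[x] ≤ 𝐂(A)) : ∃ B, W r L A B := by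
  have h1 : A ≤ L ⊓ 𝐂(A) := le_inf syl.le (le_cent_self (comm_of_cyclic cyc))
  obtain ⟨B, hB⟩ := (sylow_hall pr (syl.of_le h1 inf_le_left)).hallSub.exists_sdprod
    (inf_le_right.trans (cent_le_norm A))
  exact ⟨B, pr, syl, cyc, ne, cent, hB.dprod (hB.right_le.trans inf_le_right)⟩

namespace W

omit [Finite Γ] in
theorem comm (w : W r L A B) : IsMulCommutative A := comm_of_cyclic w.cyc

omit [Finite Γ] in
theorem CN (L A : Subgroup Γ) : L ⊓ 𝐂(A) ⊴ L ⊓ 𝐍(A) := (NormalIn.cent_norm A).inf_left L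

theorem not_dvd_B (w : W r L A B) : ¬ r ∣ #|B| := by
  haveI := Fact.mk w.pr
  rw [← w.dp.sd.relIndex_left]
  exact (w.syl.of_le w.dp.left_le inf_le_left).not_dvd_relIndex

theorem cop (w : W r L A B) : (#|A|).Coprime #|B| := pgroup_coprime w.pr w.syl.isPGroup w.not_dvd_B

theorem cop_e (w : W r L A B) : (#|A|).Coprime ((L ⊓ 𝐂(A)).relIndex (L ⊓ 𝐍(A))) := by
  haveI := Fact.mk w.pr
  exact pgroup_coprime w.pr w.syl.isPGroup ((w.syl.of_le (w.dp.left_le.trans (CN L A).le)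
    inf_le_left).not_dvd_relIndex_of_le w.dp.left_le)

theorem pow_mem (w : W r L A B) {x : Γ} (hx : x ∈ L ⊓ 𝐂(A)) :
    x ^ #|B| ∈ A ∧ (x ^ #|B| = 1 ↔ x ∈ B) := by
  obtain ⟨a, ha, b, hb, rfl⟩ := w.dp.mem_iff.1 hx
  have h1 : b ^ #|B| = 1 := orderOf_dvd_iff_pow_eq_one.1 (B.orderOf_dvd_natCard hb)
  rw [Commute.mul_pow (w.dp.mul_comm' ha hb), h1, mul_one]
  refine ⟨A.pow_mem ha _, fun e => ?_, fun e => ?_⟩
  · rwa [orderOf_eq_one_iff.1 (Nat.eq_one_of_dvd_coprimes w.cop (A.orderOf_dvd_natCard ha)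
      (orderOf_dvd_iff_pow_eq_one.2 e)), one_mul]
  · rw [w.dp.sd.eq_one ha (by simpa using B.mul_mem e (B.inv_mem hb)), one_pow]

theorem ti (w : W r L A B) : NormedTI {x | x ∈ L ⊓ 𝐂(A) ∧ x ∉ B} L (L ⊓ 𝐍(A)) where
  nonempty := by
    obtain ⟨a, ha, h1⟩ := exists_mem_ne_one w.ne
    exact ⟨a, w.dp.left_le ha, fun hb => h1 (w.dp.sd.eq_one ha hb)⟩
  le := inf_le_left
  conj_mem := fun g hg a ha => by
    have h1 := (CN L A).conj_mem hg ha.1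
    refine ⟨h1, fun hb => ha.2 ((w.pow_mem ha.1).2.1 ?_)⟩
    have := (w.pow_mem h1).2.2 hb
    rwa [conj_pow, mul_inv_eq_one, mul_eq_left] at this
  mem_of_conj := fun g hg a ha hb => by
    obtain ⟨h1, h2⟩ := w.pow_mem ha.1
    obtain ⟨h3, h4⟩ := w.pow_mem hb.1
    have h5 : g ⋆ A ≤ L := conj_le_of_mem hg w.syl.le
    have h6 : g ⋆ A ≤ 𝐂[(g * a * g⁻¹) ^ #|B|] := by
      rw [conj_pow, ← conj_cent1]
      exact conj_mono g ((le_cent_self w.comm).trans (cent_le_cent1 h1))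
    exact ⟨hg, mem_norm_of_conj_le (sylow_le_of_norm w.pr w.syl h5 (pgroup_conj w.syl.isPGroup g)
      (Or.inr (le_norm_of_le_cent ((le_inf h5 h6).trans (w.cent _ h3 fun e => hb.2 (h4.1 e))))))⟩

theorem norm_B (w : W r L A B) : L ⊓ 𝐍(A) ≤ 𝐍(B) := le_norm_iff.2 fun g hg b hb => by
  by_contra h
  have := w.ti.conj_mem g⁻¹ (inv_mem hg) _ ⟨(CN L A).conj_mem hg (w.dp.right_le hb), h⟩
  exact this.2 (by simpa [mul_assoc] using hb)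

theorem ti_ineq (w : W r L A B) (hφ : CF L φ) (hQ : Q ≤ L) (hr : ¬ r ∣ #|Q|) :
    #|L| * (#|L ⊓ 𝐂(A)| * nrm (L ⊓ 𝐂(A)) φ) + #|L ⊓ 𝐍(A)| * (#|Q| * nrm Q φ) ≤
      #|L| * (#|L ⊓ 𝐍(A)| * nrm L φ + #|B| * nrm B φ) := by
  have hCN := CN L A
  have hBN : B ⊴ L ⊓ 𝐍(A) := ⟨w.dp.right_le.trans hCN.le, w.norm_B⟩
  have hN := hφ.res (inf_le_left : L ⊓ 𝐍(A) ≤ L)
  let ρ := res (L ⊓ 𝐂(A)) φ - res B φ
  have hρ : CFOn (L ⊓ 𝐍(A)) {x | x ∈ L ⊓ 𝐂(A) ∧ x ∉ B} ρ := by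
    refine ⟨?_, fun x hx => ?_⟩
    · have := (hN.res_normal hCN).sub (hN.res_normal hBN)
      rwa [res_res hCN.le, res_res hBN.le] at this
    · by_cases h1 : x ∈ B
      · simp [ρ, h1, res_apply_of_mem _ (w.dp.right_le h1)]
      · simp [ρ, res_apply_of_notMem _ h1, res_apply_of_notMem _ fun h2 => hx ⟨h2, h1⟩]
  have hη := hρ.ind (inf_le_left : L ⊓ 𝐍(A) ≤ L)
  have h1 : nrm L φ = nrm L (ind L (L ⊓ 𝐍(A)) ρ) + nrm L (φ - ind L (L ⊓ 𝐍(A)) ρ) := by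
    rw [← nrm_add_of_ortho (dot_eq_zero_of_mul fun x _ => ?_), add_sub_cancel]
    by_cases hx : x ∈ classSupp {x | x ∈ L ⊓ 𝐂(A) ∧ x ∉ B} L
    · obtain ⟨a, ha, g, hg, rfl⟩ := hx
      rw [Pi.sub_apply, hη.cf.conj_eq g hg, hφ.conj_eq g hg, w.ti.ind_apply hρ ha]
      simp [ρ, res_apply_of_mem _ ha.1, res_apply_of_notMem _ ha.2]
    · simp [hη.supp x hx]
  have h2 : nrm L (ind L (L ⊓ 𝐍(A)) ρ) = nrm (L ⊓ 𝐍(A)) ρ :=
    nrm_eq_iff_dot_eq.2 (w.ti.dot_ind_ind hρ hρ)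
  have h3 := card_mul_nrm_le hQ (φ - ind L (L ⊓ 𝐍(A)) ρ)
  rw [nrm_congr (H := Q) (ψ := φ) fun x hx => by
    rw [Pi.sub_apply, hη.supp x, sub_zero]
    rintro ⟨a, ha, g, hg, rfl⟩
    obtain ⟨h4, h5⟩ := w.pow_mem ha.1
    refine ha.2 (h5.1 ?_)
    have h6 := Q.orderOf_dvd_natCard (Q.pow_mem hx #|B|)
    rw [conj_pow, orderOf_conj'] at h6
    exact orderOf_eq_one_iff.1 (Nat.eq_one_of_dvd_coprimes
      (pgroup_coprime w.pr w.syl.isPGroup hr) (A.orderOf_dvd_natCard h4) h6)] at h3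
  have h4 := card_mul_dot_of_supp (φ := ρ) (ψ := ρ) hCN.le fun x _ hx => by
    rw [hρ.supp x fun h => hx h.1, zero_mul]
  have h5 : nrm (L ⊓ 𝐂(A)) φ = nrm (L ⊓ 𝐂(A)) ρ + nrm (L ⊓ 𝐂(A)) (res B φ) := by
    rw [← nrm_add_of_ortho (dot_eq_zero_of_mul fun x _ => ?_), sub_add_cancel, nrm, nrm,
      dot_res_left, dot_res_right]
    by_cases hx : x ∈ B
    · simp [hρ.supp x fun h => h.2 hx]
    · simp [res_apply_of_notMem _ hx]
  have h6 := card_mul_dot_of_supp (φ := res B φ) (ψ := res B φ) w.dp.right_le fun x _ hx => by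
    simp [res_apply_of_notMem φ hx]
  rw [dot_res_left B, dot_res_right B, dot_self_eq_nrm, dot_self_eq_nrm] at h6
  rw [dot_self_eq_nrm, dot_self_eq_nrm] at h4
  have h4' : #|L ⊓ 𝐍(A)| * nrm (L ⊓ 𝐍(A)) ρ = #|L ⊓ 𝐂(A)| * nrm (L ⊓ 𝐂(A)) ρ := by exact_mod_cast h4
  have h6' : #|L ⊓ 𝐂(A)| * nrm (L ⊓ 𝐂(A)) (res B φ) = #|B| * nrm B φ := by exact_mod_cast h6
  have h7 := mul_le_mul_of_nonneg_left h3 (card_pos_R (L ⊓ 𝐍(A))).le
  rw [h1, h2, h5, mul_add (#|L ⊓ 𝐂(A)| : ℝ), h6', ← h4']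
  nlinarith

/-- the TI inequality for an irreducible character -/
theorem ti_nat (w : W r L A B) (hχ : Irr L χ) (hQ : Q ≤ L) (hr : ¬ r ∣ #|Q|) :
    #|L| * (#|A| * mu (L ⊓ 𝐂(A)) χ χ) +
      (L ⊓ 𝐂(A)).relIndex (L ⊓ 𝐍(A)) * #|A| * (#|Q| * mu Q χ χ) ≤
      #|L| * ((L ⊓ 𝐂(A)).relIndex (L ⊓ 𝐍(A)) * #|A| + mu B χ χ) := by
  have h := w.ti_ineq hχ.cf hQ hr
  rw [hχ.nrm_eq, nrm_eq_mu hχ.chr hQ, nrm_eq_mu hχ.chr inf_le_left,
    nrm_eq_mu hχ.chr (w.dp.right_le.trans inf_le_left), ← card_mul_relIndex_of_le (CN L A).le,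
    w.dp.card] at h
  refine Nat.le_of_mul_le_mul_left ?_ (Nat.card_pos (α := B))
  have h' : #|L| * (#|A| * #|B| * mu (L ⊓ 𝐂(A)) χ χ) + #|A| * #|B| *
      (L ⊓ 𝐂(A)).relIndex (L ⊓ 𝐍(A)) * (#|Q| * mu Q χ χ) ≤ #|L| * (#|A| * #|B| *
      (L ⊓ 𝐂(A)).relIndex (L ⊓ 𝐍(A)) * 1 + #|B| * mu B χ χ) := by exact_mod_cast h
  nlinarith

theorem g1 (w : W r L A B) (hχ : Irr L χ) :
    #|A| * mu (L ⊓ 𝐂(A)) χ χ ≤ (L ⊓ 𝐂(A)).relIndex (L ⊓ 𝐍(A)) * #|A| +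
      (cs A χ).card * mu (L ⊓ 𝐂(A)) χ χ := by
  have h := w.ti_nat hχ bot_le (by simpa using w.pr.ne_one)
  have := Nat.le_of_mul_le_mul_left ((Nat.le_add_right _ _).trans h) (Nat.card_pos (α := L))
  have := nu_right_le w.dp w.comm hχ.chr inf_le_left
  omega

omit [Finite Γ] in
theorem inf_inert (hα : LinChr A φ) (hf : cfker A φ = ⊥) [Finite Γ] (L : Subgroup Γ) :
    L ⊓ 𝐍(A) ⊓ inert φ = L ⊓ 𝐂(A) := by
  apply le_antisymm
  · refine fun g hg => ⟨hg.1.1, mem_cent.2 fun x hx => ?_⟩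
    rw [← mul_inv_eq_iff_eq_mul.1 (lin_inj hα hf ((conj_mem_iff_of_norm hg.1.2).2 hx) hx (hg.2 x))]
  · refine fun g hg => ⟨(CN L A).le hg, fun x => ?_⟩
    by_cases hx : x ∈ A
    · rw [← mem_cent.1 hg.2 x hx, mul_inv_cancel_right]
    · rw [hα.1.zero x hx, hα.1.zero _ fun e => hx ((conj_mem_iff_of_norm (cent_le_norm A hg.2)).1 e)]

theorem g2 (hA : IsMulCommutative A) (hi : L ⊓ 𝐍(A) ≤ inert φ)
    [DecidablePred fun α => cfker A α = ⊥] :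
    (L ⊓ 𝐂(A)).relIndex (L ⊓ 𝐍(A)) ∣ ((cs A φ).filter fun α => cfker A α = ⊥).card := by
  have h := card_dvd_sum_stab (actJ Γ) (L ⊓ 𝐍(A)) (fun _ => 1)
    ((cs A φ).filter fun α => cfker A α = ⊥) (fun g hg α hα => by
      obtain ⟨h1, h2⟩ := Finset.mem_filter.1 hα
      have h3 := inv_mem hg
      refine Finset.mem_filter.2 ⟨mem_cs.2 ⟨(mem_cs.1 h1).1.cfJ h3.2, ?_⟩, ?_⟩
      · exact (mu_congr (dot_cfJ_right h3.2 (hi h3) α)).trans_ne (mem_cs.1 h1).2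
      · exact (cfker_cfJ h3.2 α).trans (by rw [h2, conj_bot])) fun _ _ _ _ => rfl
  rw [Finset.sum_congr rfl (g := fun _ => (#|L ⊓ 𝐂(A)| : ℤ)) fun α hα => by
    obtain ⟨h1, h2⟩ := Finset.mem_filter.1 hα
    rw [mul_one, ← inf_inert (mem_cs.1 h1).1.linChr_of_comm h2 L]
    rw [show actStab (actJ Γ) α = inert α from ?_]
    ext g
    rw [mem_actStab, ← inv_mem_iff, mem_inert]; rfl, Finset.sum_const,
    ← card_mul_relIndex_of_le (CN L A).le, nsmul_eq_mul, mul_comm] at h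
  have h' : (L ⊓ 𝐂(A)).relIndex (L ⊓ 𝐍(A)) * #|L ⊓ 𝐂(A)| ∣
      ((cs A φ).filter fun α => cfker A α = ⊥).card * #|L ⊓ 𝐂(A)| := by exact_mod_cast h
  exact Nat.dvd_of_mul_dvd_mul_right Nat.card_pos h'

end W

end Cfsg.Agent.Tr
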